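import Cfsg.Agent.C7.Cen
import Cfsg.Agent.H5.BS.Main

set_option autoImplicit false
open Matrix

namespace Cfsg.Agent.C7

namespace Bs

section
variable {H : Type*} [Group H] [Finite H] {t : H}

theorem nc (ht : t * t = 1) (hU : ∀ y, y * y = 1 → y * t = t * y → y = 1 ∨ y = t) :
    H5.BS.NC H := by
  have : Fact (Nat.Prime 2) := ⟨Nat.prime_two⟩
  have pg : ∀ s : H, s * s = 1 → ∃ P : Sylow 2 H, s ∈ (P : Subgroup H) := fun s hs => by
    have : IsPGroup 2 (Subgroup.zpowers s) := fun ⟨g, k, hk⟩ => ⟨1, Subtype.ext (by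
      simp only [pow_one, SubgroupClass.coe_pow, OneMemClass.coe_one]
      rw [← hk]
      simp only
      rw [← zpow_natCast, ← _root_.zpow_mul, mul_comm, _root_.zpow_mul, zpow_natCast, sq, hs, _root_.one_zpow])⟩
    obtain ⟨P, hP⟩ := this.exists_le_sylow
    exact ⟨P, hP (Subgroup.mem_zpowers s)⟩
  obtain ⟨S, hS⟩ := pg t ht
  have key : ∀ s : H, s * s = 1 → s ≠ 1 → ∃ g : H, g * s * g⁻¹ = t := fun s hs hs1 => by
    obtain ⟨P, hP⟩ := pg s hs
    obtain ⟨g, hg⟩ := MulAction.exists_smul_eq H P S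
    have h1 : g * s * g⁻¹ ∈ (S : Subgroup H) := by
      rw [← hg]
      exact Subgroup.smul_mem_pointwise_smul s (MulAut.conj g) _ hP
    have h2 : g * s * g⁻¹ ≠ 1 := fun e => hs1 (by simpa using e)
    have : Nontrivial (S : Subgroup H) := ⟨⟨⟨_, h1⟩, 1, fun e => h2 (congrArg Subtype.val e)⟩⟩
    have h3 := S.isPGroup'.center_nontrivial
    have h4 : IsPGroup 2 (Subgroup.center (S : Subgroup H)) := S.isPGroup'.to_subgroup _
    obtain ⟨n, hn0, hn⟩ := h4.nontrivial_iff_card.1 h3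
    obtain ⟨z, hz⟩ := exists_prime_orderOf_dvd_card' (G := Subgroup.center (S : Subgroup H)) 2
      (by rw [hn]; exact dvd_pow_self 2 hn0.ne')
    have z2 : (z.1.1 : H) * z.1.1 = 1 := by
      have := pow_orderOf_eq_one z
      rw [hz, sq] at this
      exact congrArg (fun w : Subgroup.center (S : Subgroup H) => (w.1.1 : H)) this
    have zc : ∀ y ∈ (S : Subgroup H), y * z.1.1 = z.1.1 * y := fun y hy =>
      congrArg Subtype.val (Subgroup.mem_center_iff.1 z.2 ⟨y, hy⟩)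
    have zt : (z.1.1 : H) = t := (hU _ z2 (zc t hS).symm).resolve_left fun e => by
      have : z = 1 := Subtype.ext (Subtype.ext e)
      rw [this, orderOf_one] at hz
      omega
    refine ⟨g, (hU _ ?_ (zt ▸ zc _ h1)).resolve_left h2⟩
    calc g * s * g⁻¹ * (g * s * g⁻¹) = g * (s * s) * g⁻¹ := by group
      _ = 1 := by rw [hs]; group
  intro s s' hs hs1 hs' hs1' hc
  obtain ⟨g, hg⟩ := key s hs hs1
  have := (hU (g * s' * g⁻¹) (by
    calc g * s' * g⁻¹ * (g * s' * g⁻¹) = g * (s' * s') * g⁻¹ := by group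
      _ = 1 := by rw [hs']; group) (by
    rw [← hg]
    calc g * s' * g⁻¹ * (g * s * g⁻¹) = g * (s' * s) * g⁻¹ := by group
      _ = _ := by rw [← hc]; group)).resolve_left fun e => hs1' (by simpa using e)
  rw [← hg] at this
  simpa using this.symm

theorem comm (O : Subgroup H) [hn : O.Normal] (ht : t * t = 1)
    (hO : ∀ x ∈ O, x * t = t * x → x = 1) {x y : H} (hx : x ∈ O) (hy : y ∈ O) :
    x * y = y * x := by
  have ti : t⁻¹ = t := inv_eq_of_mul_eq_one_right ht
  let f : O → O := fun x => ⟨x.1⁻¹ * (t * x * t⁻¹), O.mul_mem (O.inv_mem x.2) (hn.conj_mem _ x.2 t)⟩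
  have hf : Function.Injective f := fun a b e => by
    have e1 : a.1⁻¹ * (t * a * t⁻¹) = b.1⁻¹ * (t * b * t⁻¹) := congrArg Subtype.val e
    have := hO (b * a.1⁻¹) (O.mul_mem b.2 (O.inv_mem a.2)) (by
      calc b.1 * a.1⁻¹ * t = b.1 * (a.1⁻¹ * (t * a * t⁻¹)) * (t * a.1⁻¹) := by group
        _ = _ := by rw [e1]; group)
    exact Subtype.ext (mul_inv_eq_one.1 this).symm
  have inv : ∀ x ∈ O, t * x * t = x⁻¹ := fun x hx => by
    obtain ⟨a, ha⟩ := Finite.surjective_of_injective hf ⟨x, hx⟩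
    have e : a.1⁻¹ * (t * a * t⁻¹) = x := congrArg Subtype.val ha
    rw [← e, _root_.mul_inv_rev, _root_.mul_inv_rev, _root_.mul_inv_rev, inv_inv, inv_inv, ti]
    calc t * (a.1⁻¹ * (t * a * t)) * t = t * a.1⁻¹ * t * a * (t * t) := by group
      _ = _ := by rw [ht]; group
  have h1 := inv _ (O.mul_mem hx hy)
  have h2 : t * (x * y) * t = (y * x)⁻¹ := by
    rw [_root_.mul_inv_rev, ← inv x hx, ← inv y hy]
    calc t * (x * y) * t = t * x * (t * t) * y * t := by rw [ht]; group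
      _ = _ := by group
  exact inv_injective (h1.symm.trans h2)

omit [Finite H] in
theorem cm {g n : H} (e1 : g * t = t * g) (e2 : n * t = t * n) :
    g * n * g⁻¹ * t = t * (g * n * g⁻¹) :=
  ((Commute.mul_left e1 e2).mul_left (Commute.inv_left e1) : Commute (g * n * g⁻¹) t)

theorem mem_prods (ht : t * t = 1) (ht1 : t ≠ 1) {a : H} (h7 : a ^ 7 = 1) (ha : a * t * a = t) :
    a ∈ H5.BS.prods H := by
  have h1 : a * t * a⁻¹ * t ∈ H5.BS.prods H := H5.BS.mul_mem_prods (by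
    calc a * t * a⁻¹ * (a * t * a⁻¹) = a * (t * t) * a⁻¹ := by group
      _ = 1 := by rw [ht]; group) (fun e => ht1 (by simpa using e)) ht ht1
  have h2 : a * t * a⁻¹ * t = a ^ 2 := by
    calc a * t * a⁻¹ * t = a * t * a⁻¹ * (a * t * a) := by rw [ha]
      _ = a * (t * t) * a := by group
      _ = _ := by rw [ht, mul_one, sq]
  have h3 : a = (a ^ 2) ^ 4 := by rw [← pow_mul, show 2 * 4 = 7 + 1 from rfl, pow_succ, h7, one_mul]
  rw [h3, ← h2]
  exact pow_mem h1 4

end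

variable {F : Type*} [Field F] {ζ : F}

theorem mT_sq : mT F * mT F = 1 := by
  ext i j
  simp only [mT, mul_apply, of_apply, Fin.sum_univ_seven]
  fin_cases i <;> fin_cases j <;> simp +decide

theorem mT_tr : (mT F).trace = 1 := by
  simp only [mT, trace, diag, of_apply, Fin.sum_univ_seven]
  simp +decide

theorem mA7 (h : ζ ^ 7 = 1) : mA ζ ^ 7 = 1 := by
  rw [mA, diagonal_pow, ← diagonal_one]
  congr 1
  funext i
  rw [Pi.pow_apply, ← pow_mul, mul_comm, pow_mul, h, one_pow]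

theorem mB7 : mB F ^ 7 = 1 := by
  rw [Cen.mB_pow]
  ext i j
  simp [one_apply, show Fin.ofNat 7 7 = 0 from rfl]

theorem ATA (h : ζ ^ 7 = 1) : mA ζ * mT F * mA ζ = mT F := by
  ext i j
  simp only [mA, mT, mul_diagonal, diagonal_mul, of_apply]
  split_ifs with e
  · rw [mul_one, e, mul_comm]
    exact Cen.ch_neg h j
  · simp

theorem BTB : mB F * mT F * mB F = mT F := by
  ext i j
  simp only [mB, mT, mul_apply, of_apply, Fin.sum_univ_seven]
  fin_cases i <;> fin_cases j <;> simp +decide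

theorem mem_Z {g : GL (Fin 7) F} :
    g ∈ Subgroup.center (GL (Fin 7) F) ↔ ∃ c : F, (g : Mt F) = c • 1 := by
  rw [GeneralLinearGroup.mem_center_iff_val_mem_range_scalar]
  exact exists_congr fun c => by rw [scalar_apply, smul_one_eq_diagonal, eq_comm]

end Bs

open Bs

variable {F : Type*} [Field F] [Fintype F] {ζ : F} {G : Subgroup (GL (Fin 7) F)}

set_option maxHeartbeats 1000000 in
theorem bs (h : Ctx ζ G) (hU : UI G) (hO : CO G) : Nor ζ G := by
  classical
  let Z := (Subgroup.center (GL (Fin 7) F)).subgroupOf G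
  let π : G →* G ⧸ Z := QuotientGroup.mk' Z
  have pe : ∀ x y : G, π x = π y ↔ ∃ c : F, (x.1 : Mt F) = c • (y.1 : Mt F) := fun x y => by
    rw [← mul_inv_eq_one, ← map_inv, ← map_mul, QuotientGroup.mk'_apply, QuotientGroup.eq_one_iff,
      Subgroup.mem_subgroupOf, mem_Z]
    refine exists_congr fun c => ?_
    simp only [Subgroup.coe_mul, InvMemClass.coe_inv, Units.val_mul]
    rw [Units.mul_inv_eq_iff_eq_mul, smul_mul_assoc, one_mul]
  have ps : ∀ y, ∃ x, π x = y := QuotientGroup.mk'_surjective Z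
  obtain ⟨t, htG, ht⟩ := h.t
  obtain ⟨a, haG, ha⟩ := h.a
  obtain ⟨b, hbG, hb⟩ := h.b
  have z7 := h.prim.pow_eq_one
  let t' : G := ⟨t, htG⟩
  have t2 : π t' * π t' = 1 := by
    rw [← map_mul, ← map_one π, pe]
    exact ⟨1, by simp [t', ht, mT_sq]⟩
  have t1 : π t' ≠ 1 := by
    rw [← map_one π, Ne, pe]
    rintro ⟨c, hc⟩
    have := congrFun (congrFun hc 1) 6
    simp +decide [t', ht, mT] at this
  have ct : ∀ y : G, π y * π t' = π t' * π y → (y.1 : Mt F) * mT F = mT F * y.1 := fun y e => by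
    rw [← map_mul, ← map_mul, pe] at e
    obtain ⟨c, hc⟩ := e
    simp only [t', Subgroup.coe_mul, Units.val_mul, ht] at hc
    have h1 : mT F = c • ((y.1⁻¹ : GL (Fin 7) F).1 * (mT F * y.1)) := by
      rw [← mul_smul_comm, ← hc, ← mul_assoc, Units.inv_mul, one_mul]
    have h2 := congrArg trace h1
    rw [trace_smul, trace_mul_comm, mul_assoc, Units.mul_inv, mul_one, mT_tr, smul_eq_mul,
      mul_one] at h2
    rw [hc, ← h2, one_smul]
  have hN : H5.BS.NC (G ⧸ Z) := nc t2 fun y h1 h2 => by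
    obtain ⟨y, rfl⟩ := ps y
    rw [← map_mul, ← map_one π, pe] at h1
    obtain ⟨c, hc | hc⟩ := hU y.1 ⟨y, y.2, rfl⟩ (ct y h2) (by simpa using h1)
    · left
      rw [← map_one π, pe]
      exact ⟨c, by simpa using hc⟩
    · right
      rw [pe]
      exact ⟨c, by simpa [t', ht] using hc⟩
  let O := H5.BS.prods (G ⧸ Z)
  have hOn : O.Normal := H5.BS.prods_normal
  have hfix : ∀ x ∈ O, x * π t' = π t' * x → x = 1 := fun x hx e => by
    obtain ⟨y, rfl⟩ := ps x
    let N0 : Subgroup G := (O ⊓ Subgroup.centralizer {π t'}).comap π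
    have m0 : ∀ n : G, n ∈ N0 ↔ π n ∈ O ∧ π n * π t' = π t' * π n := fun n => by
      simp only [N0, Subgroup.mem_comap, Subgroup.mem_inf, Subgroup.mem_centralizer_singleton_iff]
    have := hO (N0.map G.subtype) (Subgroup.map_subtype_le _) ?_ ?_ ?_
      (Subgroup.mem_map_of_mem _ ((m0 y).2 ⟨hx, e⟩))
    · rw [← map_one π, pe]
      simpa using mem_Z.1 this
    · rintro _ ⟨n, hn, rfl⟩
      exact ct n ((m0 n).1 hn).2
    · rintro g hg e _ ⟨n, hn, rfl⟩
      refine ⟨⟨g, hg⟩ * n * ⟨g, hg⟩⁻¹, (m0 _).2 ⟨?_, ?_⟩, rfl⟩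
      · rw [map_mul, map_mul, map_inv]
        exact hOn.conj_mem _ ((m0 n).1 hn).1 _
      · have e1 : π ⟨g, hg⟩ * π t' = π t' * π ⟨g, hg⟩ := by
          rw [← map_mul, ← map_mul, pe]
          exact ⟨1, by simpa [t', ht] using e⟩
        have e2 := ((m0 n).1 hn).2
        rw [map_mul, map_mul, map_inv]
        exact cm e1 e2
    · have h1 : (Subgroup.center (GL (Fin 7) F)).relIndex (N0.map G.subtype) =
          Nat.card (N0.map π) := by
        rw [← Subgroup.relIndex_ker, QuotientGroup.ker_mk', ← Subgroup.relIndex_subgroupOf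
          (Subgroup.map_subtype_le N0), ← Subgroup.comap_subtype (N0.map G.subtype),
          Subgroup.comap_map_eq_self_of_injective G.subtype_injective]
      rw [h1]
      exact (H5.BS.odd_prods hN).of_dvd_nat (Subgroup.card_dvd_of_le
        ((Subgroup.map_comap_le _ _).trans inf_le_left))
  have mem : ∀ x : G, (x.1 : Mt F) ^ 7 = 1 → (x.1 : Mt F) * mT F * x.1 = mT F → π x ∈ O :=
    fun x h1 h2 => mem_prods t2 t1 (by
      rw [← map_pow, ← map_one π, pe]
      exact ⟨1, by simpa using h1⟩) (by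
      rw [← map_mul, ← map_mul, pe]
      exact ⟨1, by simpa [t', ht] using h2⟩)
  have ma := mem ⟨a, haG⟩ (ha ▸ mA7 z7) (ha ▸ ATA z7)
  have mb := mem ⟨b, hbG⟩ (hb ▸ mB7) (hb ▸ BTB)
  have fin : ∀ x : G, π x ∈ O → ∀ g : G, ∃ (c : F) (i j : ℕ),
      (g.1 : Mt F) * x.1 = c • (mA ζ ^ i * mB F ^ j) * g.1 := fun x hx g => by
    have h1 : π (g * x * g⁻¹) ∈ O := by
      rw [map_mul, map_mul, map_inv]; exact hOn.conj_mem _ hx _
    have h2 := comm O t2 hfix h1 ma
    have h3 := comm O t2 hfix h1 mb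
    rw [← map_mul, ← map_mul, pe] at h2 h3
    obtain ⟨α, h2⟩ := h2
    obtain ⟨β, h3⟩ := h3
    rw [Subgroup.coe_mul, Subgroup.coe_mul _ _ (g * x * g⁻¹), Units.val_mul,
      Units.val_mul _ (g * x * g⁻¹ : G).1] at h2 h3
    obtain ⟨c, i, j, e⟩ := cen h.prim (g := ((g * x * g⁻¹ : G).1 : Mt F))
      (GeneralLinearGroup.det_ne_zero _) (ha ▸ h2) (hb ▸ h3)
    refine ⟨c, i, j, ?_⟩
    rw [← e]
    simp
  rintro _ ⟨g, hg, rfl⟩
  exact ⟨ha ▸ fin _ ma ⟨g, hg⟩, hb ▸ fin _ mb ⟨g, hg⟩⟩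

end Cfsg.Agent.C7
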