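import Cfsg.Agent.C7.Defs

set_option autoImplicit false
open Matrix

namespace Cfsg.Agent.C7

variable {F : Type*} [Field F] {ζ : F} {G : Subgroup (GL (Fin 7) F)}

namespace Cen

/-- additive character -/
def ch (ζ : F) (x : Fin 7) : F := ζ ^ (x : ℕ)

theorem ch_add (h : ζ ^ 7 = 1) (x y : Fin 7) : ch ζ (x + y) = ch ζ x * ch ζ y := by
  rw [ch, ch, ch, ← pow_add, Fin.val_add, ← pow_eq_pow_mod _ h]

theorem ch_mul (h : ζ ^ 7 = 1) (x y : Fin 7) : ch ζ (x * y) = ζ ^ ((x : ℕ) * (y : ℕ)) := by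
  rw [ch, Fin.val_mul, ← pow_eq_pow_mod _ h]

theorem ch_zero : ch ζ 0 = 1 := pow_zero _

theorem ch_nat (h : ζ ^ 7 = 1) (n : ℕ) : ch ζ (Fin.ofNat 7 n) = ζ ^ n := by
  rw [ch, Fin.val_ofNat, ← pow_eq_pow_mod _ h]

theorem ch_pow (h : ζ ^ 7 = 1) (n : ℕ) (x : Fin 7) : ch ζ x ^ n = ch ζ (Fin.ofNat 7 n * x) := by
  rw [ch_mul h, Fin.val_ofNat, pow_mul, ← pow_eq_pow_mod _ h, ch, ← pow_mul, ← pow_mul, mul_comm]

theorem ch_ne (h : ζ ^ 7 = 1) (x : Fin 7) : ch ζ x ≠ 0 :=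
  pow_ne_zero _ (by rintro rfl; simp at h)

theorem ch_inj (h : IsPrimitiveRoot ζ 7) {x y : Fin 7} (e : ch ζ x = ch ζ y) : x = y :=
  Fin.ext (h.pow_inj x.2 y.2 e)

theorem ch_neg (h : ζ ^ 7 = 1) (x : Fin 7) : ch ζ x * ch ζ (-x) = 1 := by
  rw [← ch_add h, add_neg_cancel, ch_zero]

theorem exists_ch (h : IsPrimitiveRoot ζ 7) {β : F} (hβ : β ^ 7 = 1) : ∃ s, β = ch ζ s := by
  obtain ⟨i, hi, e⟩ := h.eq_pow_of_pow_eq_one hβ
  exact ⟨⟨i, hi⟩, e.symm⟩

theorem seven_ne (h : IsPrimitiveRoot ζ 7) : (7 : F) ≠ 0 := by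
  have := h.neZero'
  exact_mod_cast NeZero.ne ((7 : ℕ) : F)

theorem sum_ch (h : IsPrimitiveRoot ζ 7) (k : Fin 7) :
    ∑ i, ch ζ (i * k) = if k = 0 then 7 else 0 := by
  split_ifs with hk
  · simp [hk, ch_zero]
  · have h1 : ch ζ k ≠ 1 := fun e => hk (ch_inj h (e.trans ch_zero.symm))
    have h2 : ∑ i, ch ζ (i * k) = ∑ i, ch ζ ((i + 1) * k) :=
      (Fintype.sum_equiv (Equiv.addRight 1) _ _ fun _ => rfl).symm
    have h3 : ∀ k i : Fin 7, (i + 1) * k = i * k + k := by decide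
    simp only [h3, ch_add h.pow_eq_one, ← Finset.sum_mul] at h2
    have : (∑ i, ch ζ (i * k)) * (ch ζ k - 1) = 0 := by linear_combination -h2
    exact (mul_eq_zero.1 this).resolve_right (sub_ne_zero.2 h1)

/-- Weyl operators -/
def E (ζ : F) (i j : Fin 7) : Mt F := of fun r c => if r = c + j then ch ζ (i * r) else 0

theorem mB_pow (k : ℕ) : mB F ^ k = of fun r c => if r = c + Fin.ofNat 7 k then 1 else 0 := by
  induction k with
  | zero => ext r c; simp [one_apply]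
  | succ k ih =>
    ext r c
    have : Fin.ofNat 7 (k + 1) = 1 + Fin.ofNat 7 k := by
      ext; simp [Fin.val_add, Nat.add_comm]
    rw [pow_succ, ih, mul_apply, Finset.sum_eq_single (c + 1)]
    · rw [this]; simp only [mB, of_apply, add_assoc, if_true, mul_one]
    · intro b _ hb; simp [mB, hb]
    · simp

theorem E_eq (h : ζ ^ 7 = 1) (i j : ℕ) :
    mA ζ ^ i * mB F ^ j = E ζ (Fin.ofNat 7 i) (Fin.ofNat 7 j) := by
  ext r c
  rw [mA, diagonal_pow, diagonal_mul, mB_pow]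
  have : (ζ ^ (r : ℕ)) ^ i = ch ζ (Fin.ofNat 7 i * r) := ch_pow h i r
  simp [E, this]

theorem E_eq' (h : ζ ^ 7 = 1) (i j : Fin 7) : mA ζ ^ (i : ℕ) * mB F ^ (j : ℕ) = E ζ i j := by
  rw [E_eq h]; simp

theorem mul_mB (g : Mt F) (r c : Fin 7) : (g * mB F) r c = g r (c + 1) := by
  rw [mul_apply, Finset.sum_eq_single (c + 1)]
  · simp [mB]
  · intro b _ hb; simp [mB, hb]
  · simp

theorem mB_mul (g : Mt F) (r c : Fin 7) : (mB F * g) (r + 1) c = g r c := by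
  rw [mul_apply, Finset.sum_eq_single r]
  · simp [mB]
  · intro b _ hb; simp [mB, hb.symm]
  · simp

theorem cen0 (hζ : IsPrimitiveRoot ζ 7) {g : Mt F} (hg : g ≠ 0) {α β : F}
    (ha : g * mA ζ = α • (mA ζ * g)) (hb : g * mB F = β • (mB F * g)) :
    ∃ (c : F) (i j : Fin 7), g = c • E ζ i j := by
  have h7 := hζ.pow_eq_one
  have e1 : ∀ r c, g r c * ch ζ c = α * (ch ζ r * g r c) := fun r c => by
    simpa [mA, ch] using congrFun (congrFun ha r) c
  have e2 : ∀ r c, g (r + 1) (c + 1) = β * g r c := fun r c => by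
    have := congrFun (congrFun hb (r + 1)) c
    rwa [mul_mB, Matrix.smul_apply, mB_mul] at this
  have e3 : ∀ (k : ℕ) r c, g (r + Fin.ofNat 7 k) (c + Fin.ofNat 7 k) = β ^ k * g r c := by
    intro k r c
    induction k with
    | zero => simp
    | succ k ih =>
      have : Fin.ofNat 7 (k + 1) = Fin.ofNat 7 k + 1 := by ext; simp [Fin.val_add]
      rw [this, ← add_assoc, ← add_assoc, e2, ih]; ring
  obtain ⟨r0, c0, h0⟩ : ∃ r c, g r c ≠ 0 := by
    by_contra hc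
    push Not at hc
    exact hg (by ext r c; exact hc r c)
  have hβ : β ^ 7 = 1 := by
    have := e3 7 r0 c0
    rw [show Fin.ofNat 7 7 = 0 from rfl, add_zero, add_zero] at this
    exact mul_right_cancel₀ h0 (by rw [← this, one_mul])
  obtain ⟨s, rfl⟩ := exists_ch hζ hβ
  have e4 : ∀ r c, g r c ≠ 0 → ch ζ c = α * ch ζ r := fun r c h =>
    mul_left_cancel₀ h (by rw [e1]; ring)
  refine ⟨g (r0 - c0) 0 * ch ζ (-(s * (r0 - c0))), s, r0 - c0, ?_⟩
  ext r c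
  simp only [E, Matrix.smul_apply, of_apply, smul_eq_mul]
  split_ifs with h
  · have := e3 c (r0 - c0) 0
    rw [show Fin.ofNat 7 (c : ℕ) = c by simp, zero_add, add_comm, ← h, ch_pow h7] at this
    rw [this, mul_assoc, ← ch_add h7, mul_comm]
    congr 2
    rw [h]
    simp only [Fin.ofNat_val_eq_self]
    have : ∀ s c k : Fin 7, c * s = -(s * k) + s * (c + k) := by decide
    exact this _ _ _
  · rw [mul_zero]
    by_contra hc
    have h1 := e4 r c hc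
    have h2 := e4 r0 c0 h0
    have : ch ζ (c + r0) = ch ζ (r + c0) := by rw [ch_add h7, ch_add h7, h1, h2]; ring
    have := ch_inj hζ this
    exact h (by rw [add_sub, this]; simp)

end Cen

theorem cen (hζ : IsPrimitiveRoot ζ 7) {g : Mt F} (hg : g.det ≠ 0) {α β : F}
    (ha : g * mA ζ = α • (mA ζ * g)) (hb : g * mB F = β • (mB F * g)) :
    ∃ (c : F) (i j : ℕ), g = c • (mA ζ ^ i * mB F ^ j) := by
  obtain ⟨c, i, j, e⟩ := Cen.cen0 hζ (by rintro rfl; simp at hg) ha hb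
  exact ⟨c, i, j, by rw [Cen.E_eq' hζ.pow_eq_one, e]⟩

end Cfsg.Agent.C7
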