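import Mathlib

set_option autoImplicit false
open Matrix

namespace Cfsg.Agent.C7

abbrev Mt (F : Type*) := Matrix (Fin 7) (Fin 7) F

variable {F : Type*} [Field F]

/-- clock -/
def mA (ζ : F) : Mt F := diagonal fun i => ζ ^ (i : ℕ)
/-- shift `e_j ↦ e_{j+1}` -/
def mB (F : Type*) [Field F] : Mt F := of fun i j => if i = j + 1 then 1 else 0
/-- quadratic phase -/
def mD (ζ : F) : Mt F := diagonal fun i => ζ ^ ((i : ℕ) ^ 2)
/-- Fourier matrix -/
def mW (ζ : F) : Mt F := of fun i j => ζ ^ ((i : ℕ) * (j : ℕ))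
/-- `e_j ↦ e_{3j}` -/
def mM (F : Type*) [Field F] : Mt F := of fun i j => if i = 3 * j then 1 else 0
/-- `e_j ↦ e_{-j}` -/
def mT (F : Type*) [Field F] : Mt F := of fun i j => if i = -j then 1 else 0

/-- the matrix `M` lies in `G` -/
def In (G : Subgroup (GL (Fin 7) F)) (M : Mt F) : Prop := ∃ g ∈ G, (g : Mt F) = M

/-- the fields of the statement -/
def FH (F : Type*) [Field F] [Fintype F] (p : ℕ) : Prop :=
  p.Prime ∧ CharP F p ∧
    ((Fintype.card F = p ∧ p % 7 = 1) ∨ (Fintype.card F = p ^ 3 ∧ (p % 7 = 2 ∨ p % 7 = 4)))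

/-- an overgroup (with all scalars) of the normaliser of the extraspecial group -/
structure Ctx (ζ : F) (G : Subgroup (GL (Fin 7) F)) : Prop where
  prim : IsPrimitiveRoot ζ 7
  sc : ∀ c : F, c ≠ 0 → In G (c • (1 : Mt F))
  det : ∀ M, In G M → ∃ c : F, M.det = c ^ 7
  a : In G (mA ζ)
  b : In G (mB F)
  d : In G (mD ζ)
  w : In G (mW ζ)
  m : In G (mM F)

/-- the map `x ↦ x + φ(x) v` is a transvection (or `1`) of `G` -/
def Tr (G : Subgroup (GL (Fin 7) F)) (v φ : Fin 7 → F) : Prop :=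
  φ ⬝ᵥ v = 0 ∧ In G (1 + vecMulVec v φ)

def TVx (G : Subgroup (GL (Fin 7) F)) : Prop := ∃ v φ, v ≠ 0 ∧ φ ≠ 0 ∧ Tr G v φ

def SLle (G : Subgroup (GL (Fin 7) F)) : Prop := ∀ M : Mt F, M.det = 1 → In G M

/-- `G` normalises the extraspecial group times the scalars -/
def Nor (ζ : F) (G : Subgroup (GL (Fin 7) F)) : Prop :=
  ∀ g, In G g → (∃ (c : F) (i j : ℕ), g * mA ζ = c • (mA ζ ^ i * mB F ^ j) * g) ∧
    ∃ (c : F) (i j : ℕ), g * mB F = c • (mA ζ ^ i * mB F ^ j) * g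

/-- a homology with centre `e_0` -/
def mH (μ : F) : Mt F := diagonal fun i => if i = 0 then μ else 1

/-- the diagonal elements have exponent 7 modulo scalars -/
def DG (G : Subgroup (GL (Fin 7) F)) : Prop :=
  ∀ f : Fin 7 → F, In G (diagonal f) → ∃ c, ∀ i, f i ^ 7 = c

/-- the centraliser of `mD` is monomial -/
def GM (ζ : F) (G : Subgroup (GL (Fin 7) F)) : Prop :=
  ∀ g, In G g → g * mD ζ = mD ζ * g → ∀ i : Fin 7, i ≠ 0 →
    (g i (-i) = 0 ∧ g (-i) i = 0) ∨ (g i i = 0 ∧ g (-i) (-i) = 0)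

/-- the action on the span of `e_1 - e_6, e_2 - e_5, e_3 - e_4` -/
def r3 (y : Mt F) : Matrix (Fin 3) (Fin 3) F :=
  of fun i j => y ⟨i + 1, by omega⟩ ⟨j + 1, by omega⟩ - y ⟨i + 1, by omega⟩ ⟨6 - j, by omega⟩

def K3 (G : Subgroup (GL (Fin 7) F)) : Prop :=
  ∀ y, In G y → y * mT F = mT F * y → (∃ c : F, r3 y = c • 1) →
    ∃ c : F, y = c • (1 : Mt F) ∨ y = c • mT F

/-- unique involution in the centraliser of `mT` modulo scalars -/
def UI (G : Subgroup (GL (Fin 7) F)) : Prop :=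
  ∀ y, In G y → y * mT F = mT F * y → (∃ c : F, y * y = c • (1 : Mt F)) →
    ∃ c : F, y = c • (1 : Mt F) ∨ y = c • mT F

/-- no normal subgroup of odd order in the centraliser of `mT` modulo scalars -/
def CO (G : Subgroup (GL (Fin 7) F)) : Prop :=
  ∀ N : Subgroup (GL (Fin 7) F), N ≤ G → (∀ n ∈ N, (n : Mt F) * mT F = mT F * n) →
    (∀ y ∈ G, (y : Mt F) * mT F = mT F * y → ∀ n ∈ N, y * n * y⁻¹ ∈ N) →
    Odd ((Subgroup.center (GL (Fin 7) F)).relIndex N) → N ≤ Subgroup.center (GL (Fin 7) F)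

variable {G : Subgroup (GL (Fin 7) F)} {M M' : Mt F}

theorem In.mul (h : In G M) (h' : In G M') : In G (M * M') := by
  obtain ⟨g, hg, rfl⟩ := h
  obtain ⟨g', hg', rfl⟩ := h'
  exact ⟨g * g', G.mul_mem hg hg', rfl⟩

theorem In.one : In G (1 : Mt F) := ⟨1, G.one_mem, rfl⟩

theorem In.pow (h : In G M) (n : ℕ) : In G (M ^ n) := by
  obtain ⟨g, hg, rfl⟩ := h
  exact ⟨g ^ n, G.pow_mem hg n, Units.val_pow_eq_pow_val _ _⟩

theorem In.inv (h : In G M) (e : M * M' = 1) : In G M' := by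
  obtain ⟨g, hg, rfl⟩ := h
  refine ⟨g⁻¹, G.inv_mem hg, ?_⟩
  rw [← mul_one (g⁻¹ : GL (Fin 7) F).1, ← e, ← mul_assoc, Units.inv_mul, one_mul]

theorem In.exists_inv (h : In G M) : ∃ M', In G M' ∧ M * M' = 1 ∧ M' * M = 1 := by
  obtain ⟨g, hg, rfl⟩ := h
  exact ⟨_, ⟨g⁻¹, G.inv_mem hg, rfl⟩, Units.mul_inv g, Units.inv_mul g⟩

theorem Ctx.smul {ζ : F} (h : Ctx ζ G) (hM : In G M) {c : F} (hc : c ≠ 0) : In G (c • M) := by
  have := (h.sc c hc).mul hM
  rwa [smul_mul_assoc, one_mul] at this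

theorem mM_pow : mM F ^ 3 = mT F := by
  ext i j
  simp only [pow_succ, pow_zero, one_mul, mM, mT, mul_apply, of_apply, Fin.sum_univ_seven]
  fin_cases i <;> fin_cases j <;> simp +decide

theorem Ctx.t {ζ : F} (h : Ctx ζ G) : In G (mT F) := mM_pow (F := F) ▸ h.m.pow 3

end Cfsg.Agent.C7
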