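import Cfsg.Agent.C7.Defs

set_option autoImplicit false
open Matrix

namespace Cfsg.Agent.C7
namespace Dg

variable {F : Type*} [Field F] {ζ : F} {G : Subgroup (GL (Fin 7) F)}

theorem conjM (h : Ctx ζ G) {f : Fin 7 → F} (hf : In G (diagonal f)) :
    In G (diagonal fun i => f (3 * i)) := by
  obtain ⟨M', h1, -, h3⟩ := h.m.exists_inv
  have e : diagonal f * mM F = mM F * diagonal fun i => f (3 * i) := by
    ext i j
    simp only [diagonal_mul, mul_diagonal, mM, of_apply]
    split_ifs with h
    · rw [h, mul_comm]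
    · simp
  have := (h1.mul hf).mul h.m
  rwa [mul_assoc, e, ← mul_assoc, h3, one_mul] at this

theorem conjB (h : Ctx ζ G) {f : Fin 7 → F} (hf : In G (diagonal f)) :
    In G (diagonal fun i => f (i + 1)) := by
  obtain ⟨M', h1, -, h3⟩ := h.b.exists_inv
  have e : diagonal f * mB F = mB F * diagonal fun i => f (i + 1) := by
    ext i j
    simp only [diagonal_mul, mul_diagonal, mB, of_apply]
    split_ifs with h
    · rw [h, mul_comm]
    · simp
  have := (h1.mul hf).mul h.b
  rwa [mul_assoc, e, ← mul_assoc, h3, one_mul] at this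

theorem shift (h : Ctx ζ G) {f : Fin 7 → F} (hf : In G (diagonal f)) (j : Fin 7) :
    In G (diagonal fun i => f (i + j)) := by
  have key : ∀ n : ℕ, In G (diagonal fun i => f (i + n • (1 : Fin 7))) := by
    intro n
    induction n with
    | zero => simpa using hf
    | succ n ih =>
      have := conjB h ih
      simpa only [succ_nsmul', add_assoc] using this
  have e : j = j.val • (1 : Fin 7) := by revert j; decide
  rw [e]
  exact key _

theorem ne_zero {f : Fin 7 → F} (hf : In G (diagonal f)) (i : Fin 7) : f i ≠ 0 := by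
  obtain ⟨M', -, h2, -⟩ := hf.exists_inv
  intro e
  have := congrFun (congrFun h2 i) i
  simp [diagonal_mul, e] at this

theorem key (h : Ctx ζ G) (hh : ∀ μ : F, In G (mH μ) → μ = 1) {f : Fin 7 → F}
    (hf : In G (diagonal f)) : f 0 ^ 7 = ∏ i, f i := by
  have h1 := conjM h hf
  have h2 := conjM h h1
  have h3 := conjM h h2
  have h4 := conjM h h3
  have h5 := conjM h h4
  have hP : f 1 * f 2 * f 3 * f 4 * f 5 * f 6 ≠ 0 := by
    simp [ne_zero hf]
  have h6 := h.smul (((((hf.mul h1).mul h2).mul h3).mul h4).mul h5) (inv_ne_zero hP)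
  have e : (f 1 * f 2 * f 3 * f 4 * f 5 * f 6)⁻¹ • (diagonal f * (diagonal fun i => f (3 * i)) *
      (diagonal fun i => f (3 * (3 * i))) * (diagonal fun i => f (3 * (3 * (3 * i)))) *
      (diagonal fun i => f (3 * (3 * (3 * (3 * i))))) *
      (diagonal fun i => f (3 * (3 * (3 * (3 * (3 * i))))))) =
      mH (f 0 ^ 6 / (f 1 * f 2 * f 3 * f 4 * f 5 * f 6)) := by
    simp only [diagonal_mul_diagonal, mH, ← diagonal_smul]
    congr 1
    funext i
    have a1 := ne_zero hf 1
    have a2 := ne_zero hf 2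
    have a3 := ne_zero hf 3
    have a4 := ne_zero hf 4
    have a5 := ne_zero hf 5
    have a6 := ne_zero hf 6
    fin_cases i <;> simp +decide <;> field_simp
  rw [e] at h6
  have h7 := hh _ h6
  rw [div_eq_one_iff_eq hP] at h7
  rw [Fin.prod_univ_seven, pow_succ, h7]
  ring

end Dg

variable {F : Type*} [Field F] [Fintype F] {ζ : F} {G : Subgroup (GL (Fin 7) F)}

omit [Fintype F] in
theorem dg (h : Ctx ζ G) (hh : ∀ μ : F, In G (mH μ) → μ = 1) : DG G := by
  intro f hf
  refine ⟨∏ i, f i, fun j => ?_⟩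
  have := Dg.key h hh (Dg.shift h hf j)
  rw [zero_add] at this
  rw [this]
  exact Equiv.prod_comp (Equiv.addRight j) f

end Cfsg.Agent.C7
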