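import Cfsg.Agent.C7.P2
import Cfsg.Agent.C7.Cen

/-! Homologies of odd prime order produce transvections. -/

set_option autoImplicit false
open Matrix

namespace Cfsg.Agent.C7

open Cfsg.Agent.H6 Cfsg.Agent.H6.Pg P2
open scoped MatrixGroups

variable {F : Type*} [Field F] {ζ : F} {G : Subgroup (GL (Fin 7) F)} {p : ℕ}

namespace Hom

/-- the plane spanned by the first basis vector and the sum of the others -/
def pP (F : Type*) [Field F] : Matrix (Fin 7) (Fin 2) F :=
  of fun i j => if j = 0 then (if i = 0 then 1 else 0) else (if i = 0 then 0 else 1)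

/-- coordinates on the plane -/
def pQ (F : Type*) [Field F] : Matrix (Fin 2) (Fin 7) F :=
  of fun j i => if j = 0 then (if i = 0 then 1 else 0) else (if i = 0 then 0 else 6⁻¹)

theorem QP (h6 : (6 : F) ≠ 0) : pQ F * pP F = 1 := by
  ext i j
  fin_cases i <;> fin_cases j <;> simp [pP, pQ, mul_apply, Fin.sum_univ_seven]
  field_simp
  norm_num

theorem emA (μ : F) : em (pP F) (pQ F) 1 !![μ, 0; 0, 1] = mH μ := by
  ext i j
  simp only [P2.em, mH, pP, pQ, Matrix.add_apply, Matrix.mul_apply, Fin.sum_univ_two, of_apply,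
    Matrix.sub_apply, one_apply, diagonal_apply]
  by_cases hi : i = 0 <;> by_cases hj : j = 0 <;> simp [hi, hj, eq_comm]

theorem emB (h6 : (6 : F) ≠ 0) (c : F) : em (pP F) (pQ F) 1 !![1 + c, 6 * c; c, 1 + 6 * c] =
    1 + of fun _ _ => c := by
  ext i j
  simp only [P2.em, pP, pQ, Matrix.add_apply, Matrix.mul_apply, Fin.sum_univ_two, of_apply,
    Matrix.sub_apply, add_right_inj]
  by_cases hi : i = 0 <;> by_cases hj : j = 0 <;> simp [hi, hj] <;> field_simp

theorem inB (h : Ctx ζ G) {μ c : F} (hc : 7 * c = μ - 1) (hm : In G (mH μ)) :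
    In G (1 + of fun _ _ => c) := by
  obtain ⟨w', h1, h2, -⟩ := h.w.exists_inv
  have e : (1 + of fun _ _ => c) * mW ζ = mW ζ * mH μ := by
    ext i j
    have := Cen.sum_ch h.prim j
    simp only [Cen.ch_mul h.prim.pow_eq_one] at this
    rw [add_mul, one_mul, mH, mul_diagonal, Matrix.add_apply, mul_apply]
    simp only [mW, of_apply, ← Finset.mul_sum, this]
    by_cases hj : j = 0
    · simp [hj]
      linear_combination hc
    · simp [hj]
  have := (h.w.mul hm).mul h1
  rwa [← e, mul_assoc, h2, mul_one] at this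

theorem mH_pow (μ : F) (n : ℕ) : mH μ ^ n = mH (μ ^ n) := by
  rw [mH, mH, diagonal_pow]
  congr 1
  funext i
  by_cases hi : i = 0 <;> simp [hi]

theorem nz' [Fintype F] (hF : FH F p) {r l : ℕ} (hr : r.Prime) (hl : l ∣ Fintype.card F - 1)
    (h1 : ¬ l ∣ r - 1 ∨ r % 7 ≠ 1) (h2 : ¬ l ∣ r ^ 3 - 1 ∨ r % 7 = 1) : (r : F) ≠ 0 := by
  obtain ⟨a1, a2, a3⟩ := hF
  rw [Ne, CharP.cast_eq_zero_iff F p, Nat.prime_dvd_prime_iff_eq a1 hr]
  rintro rfl
  rcases a3 with ⟨a, b⟩ | ⟨a, b⟩ <;> rw [a] at hl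
  · tauto
  · rcases h2 with h2 | h2
    · exact h2 hl
    · omega

end Hom

open Hom in
theorem hom [Fintype F] (hF : FH F p) (hp : p ≠ 2) (h : Ctx ζ G) {μ : F} {l : ℕ} (hl : l.Prime)
    (h3 : 3 ≤ l) (hμ : IsPrimitiveRoot μ l) (hm : In G (mH μ)) : TVx G := by
  have := Fact.mk hF.1
  have := hF.2.1
  have n2 : (2 : F) ≠ 0 := by exact_mod_cast nz hF hp Nat.prime_two (by omega)
  have n3 : (3 : F) ≠ 0 := by exact_mod_cast nz hF hp Nat.prime_three (by omega)
  have n5 : (5 : F) ≠ 0 := by exact_mod_cast nz hF hp Nat.prime_five (by omega)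
  have n7 : (7 : F) ≠ 0 := Cen.seven_ne h.prim
  have n6 : (6 : F) ≠ 0 := by
    rw [show (6 : F) = 2 * 3 by norm_num]; exact mul_ne_zero n2 n3
  have μ0 : μ ≠ 0 := hμ.ne_zero (by omega)
  have hd : l ∣ Fintype.card F - 1 :=
    hμ.dvd_of_pow_eq_one _ (FiniteField.pow_card_sub_one_eq_one μ μ0)
  have hne : ∀ k, 0 < k → k < l → μ ^ k - 1 ≠ 0 := fun k a b =>
    sub_ne_zero.2 (hμ.pow_ne_one_of_pos_of_lt a.ne' b)
  have dB : ∀ ν : F, (!![1 + (ν - 1) / 7, 6 * ((ν - 1) / 7); (ν - 1) / 7,
      1 + 6 * ((ν - 1) / 7)] : M2 F).det = ν := fun ν => by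
    rw [det_fin_two_of]; field_simp; ring
  have mA : ∀ k, pg !![μ ^ k, 0; 0, 1] ∈ MM G (QP n6) ⊤ := fun k =>
    ⟨_, 1, by simp [μ0], trivial, rfl, Dm.one, by rw [emA, ← mH_pow]; exact hm.pow k⟩
  have mB : ∀ k, pg !![1 + (μ ^ k - 1) / 7, 6 * ((μ ^ k - 1) / 7); (μ ^ k - 1) / 7,
      1 + 6 * ((μ ^ k - 1) / 7)] ∈ MM G (QP n6) ⊤ := fun k =>
    ⟨_, 1, by simp [dB, μ0, -det_fin_two_of], trivial, rfl, Dm.one, by
      rw [emB n6]
      exact inB h (μ := μ ^ k) (by field_simp) (by rw [← mH_pow]; exact hm.pow k)⟩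
  have h1 := hne 1 (by omega) (by omega)
  have h2 : μ ^ 1 + 1 ≠ 0 := fun e => hne 2 (by omega) (by omega) (by
    linear_combination (μ - 1) * e)
  rcases dk p _ (by simp [μ0]) (by simp [dB, μ0, -det_fin_two_of]) (by simpa using h2)
    (fun e => h2 (by
      rw [trace_fin_two_of] at e
      field_simp at e
      apply mul_left_cancel₀ n7
      linear_combination e))
    (by
      have : (6 : F) * ((μ ^ 1 - 1) / 7) ^ 2 * (μ ^ 1 - 1) ^ 2 ≠ 0 := by
        simp only [ne_eq, mul_eq_zero, pow_eq_zero_iff two_ne_zero, div_eq_zero_iff]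
        tauto
      intro e
      apply this
      rw [← e]
      simp [det_fin_two]
      ring) (mA 1) (mB 1) with H | ⟨k, L, hL, -⟩
  swap
  · exact big _ hL
  exfalso
  have key : ∀ a b, 0 < b → b < l → ∀ t : F,
      (μ ^ a * (6 + μ ^ b) + 1 + 6 * μ ^ b) ^ 2 = 49 * t * (μ ^ a * μ ^ b) →
      t = 0 ∨ t = 1 ∨ t = 2 ∨ t ^ 2 - 3 * t + 1 = 0 := fun a b b1 b2 t ht => by
    have m := mul_mem (mA a) (mB b)
    have d1 : (!![μ ^ a, 0; 0, 1] : M2 F).det ≠ 0 := by simp [μ0]
    have d2 := (dB (μ ^ b)).trans_ne (pow_ne_zero b μ0)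
    rw [pg_mul d1 d2] at m
    refine tau_small H (by rw [det_mul]; exact mul_ne_zero d1 d2) ?_ m ?_
    · have := hne b b1 b2
      simp [μ0, n6, n7, this]
    · rw [det_mul, dB]
      simp [trace_fin_two]
      field_simp
      linear_combination ht
  have ho := ord_small H hμ μ0 (by simpa using mA 1)
  have hl' : l = 3 ∨ l = 5 := by
    rcases ho with e | e | e | e
    · have := Nat.le_of_dvd (by norm_num) e; omega
    · have := Nat.le_of_dvd (by norm_num) e; omega
    · have := Nat.le_of_dvd (by norm_num) e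
      interval_cases l
      · omega
      · exact absurd hl (by norm_num)
    · have := Nat.le_of_dvd (by norm_num) e
      interval_cases l <;> omega
  have n49 : (49 : F) ≠ 0 := by
    rw [show (49 : F) = 7 * 7 by norm_num]; exact mul_ne_zero n7 n7
  rcases hl' with rfl | rfl
  · have g := hμ.geom_sum_eq_zero (by norm_num)
    simp only [Finset.sum_range_succ, Finset.sum_range_zero] at g
    have g3 := hμ.pow_eq_one
    have n11 : (11 : F) ≠ 0 := by
      exact_mod_cast nz' hF (r := 11) (by norm_num) hd (by norm_num) (by norm_num)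
    have n41 : (41 : F) ≠ 0 := by exact_mod_cast nz hF hp (r := 41) (by norm_num) (by omega)
    have n61 : (61 : F) ≠ 0 := by exact_mod_cast nz hF hp (r := 61) (by norm_num) (by omega)
    rcases key 1 2 (by norm_num) (by norm_num) (16 / 49) (by
      have e : μ ^ 1 * (6 + μ ^ 2) + 1 + 6 * μ ^ 2 = -4 := by linear_combination 6 * g + g3
      rw [e]
      field_simp
      linear_combination (-16) * g3) with e | e | e | e <;> field_simp at e
    · exact pow_ne_zero 4 n2 (by linear_combination e)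
    · exact mul_ne_zero n3 n11 (by linear_combination -e)
    · exact mul_ne_zero n2 n41 (by linear_combination -e)
    · exact mul_ne_zero n5 n61 (by linear_combination e)
  · have g := hμ.geom_sum_eq_zero (by norm_num)
    simp only [Finset.sum_range_succ, Finset.sum_range_zero] at g
    have g5 := hμ.pow_eq_one
    have n19 : (19 : F) ≠ 0 := by exact_mod_cast nz hF hp (r := 19) (by norm_num) (by omega)
    have n131 : (131 : F) ≠ 0 := by exact_mod_cast nz hF hp (r := 131) (by norm_num) (by omega)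
    have n29 : (29 : F) ≠ 0 := by
      exact_mod_cast nz' hF (r := 29) (by norm_num) hd (by norm_num) (by norm_num)
    have n599 : (599 : F) ≠ 0 := by
      exact_mod_cast nz' hF (r := 599) (by norm_num) hd (by norm_num) (by norm_num)
    have k5 : ∀ y : F, y ^ 2 + y - 1 = 0 → ∀ t : F, 49 * t = (12 + y) ^ 2 →
        (t = 0 ∨ t = 1 ∨ t = 2 ∨ t ^ 2 - 3 * t + 1 = 0) → y = -19 := fun y hy t ht e => by
      rcases e with e | e | e | e
      · have : 12 + y = 0 := pow_eq_zero_iff (two_ne_zero) |>.1 (by rw [← ht, e, mul_zero])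
        exact absurd (by linear_combination hy - (y - 11) * this) n131
      · have : (y + 5) * (y + 19) = 0 := by linear_combination -ht + 49 * e
        rcases mul_eq_zero.1 this with a | a
        · exact absurd (by linear_combination hy - (y - 4) * a) n19
        · linear_combination a
      · have : 23 * y + 47 = 0 := by linear_combination -ht + 49 * e - hy
        exact absurd (by linear_combination 529 * hy - (23 * y - 24) * this) n599
      · have : 2 ^ 3 * 3 * 5 * (23 * y + 22) = 0 := by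
          linear_combination 2401 * e - (49 * t + (12 + y) ^ 2 - 147) * ht -
            (y ^ 2 + 47 * y + 671) * hy
        have := (mul_eq_zero.1 this).resolve_left
          (mul_ne_zero (mul_ne_zero (pow_ne_zero 3 n2) n3) n5)
        exact absurd (by linear_combination (23 * y + 1) * this - 529 * hy) (mul_ne_zero n19 n29)
    have y1 : (μ + μ ^ 4) ^ 2 + (μ + μ ^ 4) - 1 = 0 := by
      linear_combination g + (μ ^ 3 + 2) * g5
    have y2 : (μ ^ 2 + μ ^ 3) ^ 2 + (μ ^ 2 + μ ^ 3) - 1 = 0 := by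
      linear_combination g + (μ + 2) * g5
    have a1 := k5 _ y1 ((12 + (μ + μ ^ 4)) ^ 2 / 49) (by field_simp)
      (key 1 1 (by norm_num) (by norm_num) _ (by
        have e : μ ^ 1 * (6 + μ ^ 1) + 1 + 6 * μ ^ 1 = μ * (12 + (μ + μ ^ 4)) := by
          linear_combination -g5
        rw [e]
        field_simp))
    have a2 := k5 _ y2 ((12 + (μ ^ 2 + μ ^ 3)) ^ 2 / 49) (by field_simp)
      (key 2 2 (by norm_num) (by norm_num) _ (by
        have e : μ ^ 2 * (6 + μ ^ 2) + 1 + 6 * μ ^ 2 = μ ^ 2 * (12 + (μ ^ 2 + μ ^ 3)) := by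
          linear_combination -g5
        rw [e]
        field_simp))
    have b1 : (37 : F) = 0 := by linear_combination a1 + a2 - g
    rw [a1] at y1
    exact pow_ne_zero 3 n2 (by linear_combination y1 - 9 * b1)

end Cfsg.Agent.C7
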