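import Cfsg.Agent.C7.K3a
import Cfsg.Agent.C7.Hh
import Cfsg.Agent.Sg.Sp2

set_option autoImplicit false
open Matrix

namespace Cfsg.Agent.C7
namespace K3b
open K3a

variable {F : Type*} [Field F] {ζ : F} {G : Subgroup (GL (Fin 7) F)}

/-- the even vectors -/
def E4 (F : Type*) [Field F] : Matrix (Fin 7) (Fin 4) F :=
  !![1,0,0,0; 0,1,0,0; 0,0,1,0; 0,0,0,1; 0,0,0,1; 0,0,1,0; 0,1,0,0]
def P4 (F : Type*) [Field F] : Matrix (Fin 4) (Fin 7) F :=
  !![1,0,0,0,0,0,0; 0,1,0,0,0,0,0; 0,0,1,0,0,0,0; 0,0,0,1,0,0,0]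
def P3 (F : Type*) [Field F] : Matrix (Fin 3) (Fin 7) F :=
  !![0,1,0,0,0,0,0; 0,0,1,0,0,0,0; 0,0,0,1,0,0,0]
def A4 (F : Type*) [Field F] : Matrix (Fin 4) (Fin 7) F :=
  !![2,0,0,0,0,0,0; 0,1,0,0,0,0,1; 0,0,1,0,0,1,0; 0,0,0,1,1,0,0]

theorem T_E4 : mT F * E4 F = E4 F := by
  ext i j
  fin_cases i <;> fin_cases j <;> simp +decide [mT, E4, mul_apply, Fin.sum_univ_seven]

theorem T_E3 : mT F * E3 F = -E3 F := by
  ext i j
  fin_cases i <;> fin_cases j <;> simp +decide [mT, E3, mul_apply, Fin.sum_univ_seven]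

theorem EP4 : E4 F * A4 F = 1 + mT F := by
  ext i j
  fin_cases i <;> fin_cases j <;> simp +decide [mT, E4, A4, mul_apply, Fin.sum_univ_four] <;> norm_num

theorem EP3 : E3 F * (E3 F)ᵀ = 1 - mT F := by
  ext i j
  fin_cases i <;> fin_cases j <;> simp +decide [mT, E3, mul_apply, Fin.sum_univ_three]

theorem PE4 : P4 F * E4 F = 1 := by
  ext i j
  fin_cases i <;> fin_cases j <;> simp [P4, E4, mul_apply, Fin.sum_univ_seven]

theorem A4_eq : A4 F = P4 F * (1 + mT F) := by rw [← EP4, ← Matrix.mul_assoc, PE4, Matrix.one_mul]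

theorem PE3 : P3 F * E3 F = 1 := by
  ext i j
  fin_cases i <;> fin_cases j <;> simp [P3, E3, mul_apply, Fin.sum_univ_seven]

theorem r3_eq (y : Mt F) : r3 y = P3 F * (y * E3 F) := by
  ext i j
  fin_cases i <;> fin_cases j <;> simp [r3, P3, E3, mul_apply, Fin.sum_univ_seven, sub_eq_add_neg]

theorem cancel2 (h2 : (2 : F) ≠ 0) {m n : ℕ} {X Y : Matrix (Fin m) (Fin n) F} (h : X + X = Y + Y) :
    X = Y := by
  rw [← two_smul F, ← two_smul F] at h
  exact smul_right_injective _ h2 h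

theorem act4 (h2 : (2 : F) ≠ 0) {y : Mt F} (ht : y * mT F = mT F * y) :
    E4 F * (P4 F * (y * E4 F)) = y * E4 F := by
  have e : mT F * (y * E4 F) = y * E4 F := by rw [← Matrix.mul_assoc, ← ht, Matrix.mul_assoc, T_E4]
  generalize y * E4 F = X at e
  have h1 : E4 F * A4 F * X = X + X := by rw [EP4, Matrix.add_mul, Matrix.one_mul, e]
  rw [A4_eq, Matrix.mul_assoc, Matrix.mul_assoc, Matrix.add_mul, Matrix.one_mul, e, Matrix.mul_add,
    Matrix.mul_add] at h1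
  exact cancel2 h2 h1

theorem act3 (h2 : (2 : F) ≠ 0) {y : Mt F} (ht : y * mT F = mT F * y) :
    E3 F * r3 y = y * E3 F := by
  have e : mT F * (y * E3 F) = -(y * E3 F) := by
    rw [← Matrix.mul_assoc, ← ht, Matrix.mul_assoc, T_E3, Matrix.mul_neg]
  rw [r3_eq]
  generalize y * E3 F = X at e
  have h0 : (E3 F)ᵀ = P3 F * (1 - mT F) := by rw [← EP3, ← Matrix.mul_assoc, PE3, Matrix.one_mul]
  have h1 : E3 F * (E3 F)ᵀ * X = X + X := by rw [EP3, Matrix.sub_mul, Matrix.one_mul, e, sub_neg_eq_add]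
  rw [h0, Matrix.mul_assoc, Matrix.mul_assoc, Matrix.sub_mul, Matrix.one_mul, e, sub_neg_eq_add,
    Matrix.mul_add, Matrix.mul_add] at h1
  exact cancel2 h2 h1

theorem faith (h2 : (2 : F) ≠ 0) {y y' : Mt F} (h4 : y * E4 F = y' * E4 F) (h3 : y * E3 F = y' * E3 F) :
    y = y' := by
  have e : ∀ z : Mt F, z * E4 F * A4 F + z * E3 F * (E3 F)ᵀ = z + z := fun z => by
    rw [Matrix.mul_assoc, Matrix.mul_assoc, EP4, EP3]
    noncomm_ring
  refine cancel2 h2 ?_
  rw [← e, ← e, h4, h3]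

/-- the centraliser of `mT` -/
def CT (G : Subgroup (GL (Fin 7) F)) : Subgroup (GL (Fin 7) F) where
  carrier := {y | y ∈ G ∧ y.1 * mT F = mT F * y.1}
  mul_mem' := fun {a b} ha hb => ⟨G.mul_mem ha.1 hb.1, by
    rw [Units.val_mul, mul_assoc, hb.2, ← mul_assoc, ha.2, mul_assoc]⟩
  one_mem' := ⟨G.one_mem, by simp⟩
  inv_mem' := fun {a} ha => ⟨G.inv_mem ha.1, by
    rw [Units.inv_mul_eq_iff_eq_mul, ← mul_assoc, ha.2, mul_assoc, Units.mul_inv, mul_one]⟩

/-- the kernel on the odd vectors -/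
def K1 (G : Subgroup (GL (Fin 7) F)) : Subgroup (CT G) where
  carrier := {y | y.1.1 * E3 F = E3 F}
  mul_mem' := fun {a b} ha hb => by
    change a.1.1 * b.1.1 * E3 F = E3 F
    rw [Matrix.mul_assoc, hb, ha]
  one_mem' := Matrix.one_mul _
  inv_mem' := fun {a} ha => by
    change (a.1⁻¹).1 * E3 F = E3 F
    have ha' : a.1.1 * E3 F = E3 F := ha
    conv_lhs => rw [← ha']
    rw [← Matrix.mul_assoc, Units.inv_mul, Matrix.one_mul]

theorem K1_normal (h2 : (2 : F) ≠ 0) : (K1 G).Normal := ⟨fun y hy c => by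
  change c.1.1 * y.1.1 * (c⁻¹).1.1 * E3 F = E3 F
  have hy' : y.1.1 * E3 F = E3 F := hy
  rw [Matrix.mul_assoc, Matrix.mul_assoc, ← act3 h2 (c⁻¹).2.2, ← Matrix.mul_assoc y.1.1, hy',
    act3 h2 (c⁻¹).2.2, ← Matrix.mul_assoc]
  change c.1.1 * (c.1⁻¹).1 * E3 F = E3 F
  rw [Units.mul_inv, Matrix.one_mul]⟩

/-- the action on the even vectors -/
def r4 (h2 : (2 : F) ≠ 0) (G : Subgroup (GL (Fin 7) F)) : CT G →* Matrix (Fin 4) (Fin 4) F where
  toFun y := P4 F * (y.1.1 * E4 F)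
  map_one' := by
    change P4 F * (1 * E4 F) = 1
    rw [Matrix.one_mul, PE4]
  map_mul' a b := by
    change P4 F * (a.1.1 * b.1.1 * E4 F) = _
    rw [Matrix.mul_assoc (P4 F), Matrix.mul_assoc a.1.1 (E4 F), act4 h2 b.2.2, Matrix.mul_assoc]

theorem r4_inj (h2 : (2 : F) ≠ 0) {a b : CT G} (h4 : r4 h2 G a = r4 h2 G b)
    (h3 : a.1.1 * E3 F = b.1.1 * E3 F) : a = b := by
  refine Subtype.ext (Units.ext (faith h2 ?_ h3))
  rw [← act4 h2 a.2.2, ← act4 h2 b.2.2]
  exact congrArg (E4 F * ·) h4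

theorem irr4 {U : Submodule F (Fin 4 → F)} {μ : Fin 4 → F} (hμ : Function.Injective μ)
    {ω : Matrix (Fin 4) (Fin 4) F} (hω : ∀ i j, ω i j ≠ 0) (h1 : ∀ v ∈ U, diagonal μ *ᵥ v ∈ U)
    (h2 : ∀ v ∈ U, ω *ᵥ v ∈ U) {v : Fin 4 → F} (hv : v ∈ U) (h0 : v ≠ 0) (j : Fin 4) :
    Pi.single j (1 : F) ∈ U := by
  have proj : ∀ v ∈ U, ∀ j, v j ≠ 0 → Pi.single j (1 : F) ∈ U := by
    intro v hv j hj
    have key : ∀ s : Finset (Fin 4), j ∉ s → ∃ u ∈ U, u j ≠ 0 ∧ ∀ i ∈ s, u i = 0 := by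
      intro s
      induction s using Finset.induction_on with
      | empty => exact fun _ => ⟨v, hv, hj, by simp⟩
      | insert a s _ ih =>
        intro hs
        rw [Finset.mem_insert, not_or] at hs
        obtain ⟨u, hu, u1, u2⟩ := ih hs.2
        refine ⟨diagonal μ *ᵥ u - μ a • u, U.sub_mem (h1 u hu) (U.smul_mem _ hu), ?_, fun i hi => ?_⟩
        · simp only [Pi.sub_apply, mulVec_diagonal, Pi.smul_apply, smul_eq_mul, ← sub_mul]
          exact mul_ne_zero (sub_ne_zero.2 fun e => hs.1 (hμ e)) u1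
        · simp only [Pi.sub_apply, mulVec_diagonal, Pi.smul_apply, smul_eq_mul]
          rcases Finset.mem_insert.1 hi with rfl | hi
          · exact sub_self _
          · rw [u2 i hi]; simp
    obtain ⟨u, hu, u1, u2⟩ := key (Finset.univ.erase j) (by simp)
    have e : Pi.single j (1 : F) = (u j)⁻¹ • u := by
      funext i
      by_cases hi : i = j
      · subst hi; simp [u1]
      · simp [hi, u2 i (by simp [hi])]
    rw [e]
    exact U.smul_mem _ hu
  obtain ⟨i, hi⟩ := Function.ne_iff.1 h0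
  refine proj _ (h2 _ (proj v hv i hi)) j ?_
  simp [hω]

theorem D_T : mD ζ * mT F = mT F * mD ζ ↔ ζ ^ 36 = ζ ∧ ζ ^ 25 = ζ ^ 4 ∧ ζ ^ 16 = ζ ^ 9 := by
  constructor
  · intro h
    have a := congrFun (congrFun h 6) 1
    have b := congrFun (congrFun h 5) 2
    have c := congrFun (congrFun h 4) 3
    simp +decide [mD, mT] at a b c
    exact ⟨a, b, c⟩
  · rintro ⟨a, b, c⟩
    ext i j
    fin_cases i <;> fin_cases j <;> simp +decide [mD, mT, a, b, c]

theorem m7 (hζ : IsPrimitiveRoot ζ 7) (k : ℕ) : ζ ^ k = ζ ^ (k % 7) := by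
  conv_lhs => rw [← Nat.div_add_mod k 7, pow_add, pow_mul, hζ.pow_eq_one, one_pow, one_mul]

theorem W_T (hζ : IsPrimitiveRoot ζ 7) : mW ζ * mT F = mT F * mW ζ := by
  ext i j
  have e1 : (mW ζ * mT F) i j = mW ζ i (-j) := by simp [mT, mul_apply]
  have e2 : (mT F * mW ζ) i j = mW ζ (-i) j := by
    simp only [mT, mul_apply, of_apply]
    rw [Finset.sum_eq_single (-i)] <;> simp +contextual [eq_comm (a := i), neg_eq_iff_eq_neg]
  rw [e1, e2]
  simp only [mW, of_apply]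
  rw [m7 hζ, m7 hζ (((-i : Fin 7) : ℕ) * j)]
  congr 1
  clear e1 e2
  revert i j
  decide

theorem r4_D : P4 F * (mD ζ * E4 F) = diagonal ![1, ζ, ζ ^ 4, ζ ^ 9] := by
  ext i j
  fin_cases i <;> fin_cases j <;> simp [P4, E4, mD, mul_apply, Fin.sum_univ_seven, diagonal_apply]

theorem r4_W (h2 : (2 : F) ≠ 0) (hζ : IsPrimitiveRoot ζ 7) (i j : Fin 4) :
    (P4 F * (mW ζ * E4 F)) i j ≠ 0 := by
  have key : ∀ a b : ℕ, (2 * a) % 7 ≠ (2 * b) % 7 → ζ ^ a + ζ ^ b ≠ 0 := by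
    intro a b hab e
    apply hab
    refine hζ.pow_inj (Nat.mod_lt _ (by norm_num)) (Nat.mod_lt _ (by norm_num)) ?_
    rw [← m7 hζ, ← m7 hζ, mul_comm 2 a, mul_comm 2 b, pow_mul, pow_mul, eq_neg_of_add_eq_zero_left e]
    ring
  have k1 := key 1 6 (by decide)
  have k2 := key 2 5 (by decide)
  have k3 := key 3 4 (by decide)
  have k4 := key 2 12 (by decide)
  have k5 := key 4 10 (by decide)
  have k6 := key 6 8 (by decide)
  have k7 := key 3 18 (by decide)
  have k8 := key 6 15 (by decide)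
  have k9 := key 9 12 (by decide)
  have k0 : (1 : F) + 1 ≠ 0 := by rwa [one_add_one_eq_two]
  rw [pow_one] at k1
  fin_cases i <;> fin_cases j <;> simp [P4, E4, mW, mul_apply, Fin.sum_univ_seven] <;> assumption

theorem main [Fintype F] {p : ℕ} [Fact p.Prime] [CharP F p] (h2 : (2 : F) ≠ 0) (h7 : (7 : F) ≠ 0)
    (h : Ctx ζ G) (h0 : ∀ μ : F, In G (mH μ) → μ = 1) (hD : DG G) (hG : GM ζ G) (x : K1 G) :
    x.1.1.1 = 1 ∨ x.1.1.1 = -mT F := by
  classical
  haveI := K1_normal (G := G) h2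
  haveI : Fact (Nat.Prime 7) := ⟨by norm_num⟩
  have hζ := h.prim
  obtain ⟨d0, hd0, ed⟩ := h.d
  obtain ⟨w0, hw0, ew⟩ := h.w
  let d : CT G := ⟨d0, hd0, by
    rw [ed, D_T]
    exact ⟨by rw [m7 hζ]; simp, by rw [m7 hζ], by rw [m7 hζ, m7 hζ 9]⟩⟩
  let w : CT G := ⟨w0, hw0, by rw [ew, W_T hζ]⟩
  have hd7 : d ^ 7 = 1 := by
    refine Subtype.ext (Units.ext ?_)
    change (d0 ^ 7).1 = 1
    rw [Units.val_pow_eq_pow_val, ed, mD, diagonal_pow, ← diagonal_one]
    congr 1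
    funext i
    simp only [Pi.pow_apply]
    rw [← pow_mul, mul_comm, pow_mul, hζ.pow_eq_one, one_pow]
  have cd' : ∀ y : K1 G, d * y.1 = y.1 * d → y.1.1.1 = 1 ∨ y.1.1.1 = -mT F := fun y hy =>
    cd h2 h h0 hD hG ⟨_, y.1.2.1, rfl⟩ y.1.2.2 y.2 (by
      rw [← ed]
      exact (congrArg (fun z : CT G => z.1.1) hy).symm)
  have hTT : mT F * mT F = 1 := by
    ext i j
    fin_cases i <;> fin_cases j <;> simp +decide [mT, mul_apply, Fin.sum_univ_seven]
  have h71 : IsPGroup 7 (Subgroup.zpowers d) := by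
    rintro ⟨_, i, rfl⟩
    refine ⟨1, Subtype.ext ?_⟩
    change (d ^ i) ^ 7 ^ 1 = 1
    rw [pow_one, ← zpow_natCast, ← _root_.zpow_mul, mul_comm, _root_.zpow_mul, zpow_natCast, hd7,
      _root_.one_zpow]
  letI : MulDistribMulAction (Subgroup.zpowers d) (K1 G) :=
    MulDistribMulAction.compHom (K1 G) ((MulAut.conjNormal (H := K1 G)).comp (Subgroup.zpowers d).subtype)
  have hsm : ∀ (g : Subgroup.zpowers d) (y : K1 G), (g • y).1 = g.1 * y.1 * g.1⁻¹ := fun _ _ => rfl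
  have invS : ∀ (l : ℕ) [Fact l.Prime], ¬ 7 ∣ Nat.card (Sylow l (K1 G)) →
      ∃ S : Sylow l (K1 G), ∀ (g : Subgroup.zpowers d), ∀ y ∈ S, g • y ∈ S := by
    intro l _ hl
    obtain ⟨S, hS⟩ := h71.nonempty_fixed_point_of_prime_not_dvd_card _ hl
    refine ⟨S, fun g y hy => ?_⟩
    have e : g • S = S := hS g
    rw [← e]
    exact Subgroup.smul_mem_pointwise_smul y g (S : Subgroup (K1 G)) hy
  have sq : ∀ y : K1 G, d * y.1 = y.1 * d → y ^ 2 = 1 := by
    intro y hy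
    refine Subtype.ext (Subtype.ext (Units.ext ?_))
    change (y.1.1 ^ 2).1 = 1
    rw [Units.val_pow_eq_pow_val, pow_two]
    rcases cd' y hy with e | e <;> rw [e]
    · exact one_mul _
    · rw [neg_mul_neg, hTT]
  have n7 : ¬ 7 ∣ Nat.card (K1 G) := by
    intro h1
    obtain ⟨S, hS⟩ := invS 7 (not_dvd_card_sylow 7 _)
    letI : MulAction (Subgroup.zpowers d) S :=
      { smul := fun g y => ⟨g • y.1, hS g y.1 y.2⟩
        one_smul := fun y => Subtype.ext (one_smul _ y.1)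
        mul_smul := fun a b y => Subtype.ext (mul_smul a b y.1) }
    obtain ⟨b, hb, hb1⟩ := h71.exists_fixed_point_of_prime_dvd_card_of_fixed_point S
      (S.dvd_card_of_dvd_card h1) (a := 1) (fun g => Subtype.ext (smul_one g))
    have e := congrArg (fun z : S => z.1.1) (hb ⟨d, Subgroup.mem_zpowers d⟩)
    have e1 := sq b.1 (mul_inv_eq_iff_eq_mul.1 e)
    obtain ⟨k, hk⟩ := S.isPGroup' b
    have e2 : b.1 ^ 7 ^ k = 1 := congrArg Subtype.val hk
    have := Nat.dvd_gcd (orderOf_dvd_of_pow_eq_one e1) (orderOf_dvd_of_pow_eq_one e2)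
    rw [Nat.Coprime.pow_right k (by norm_num), Nat.dvd_one, orderOf_eq_one_iff] at this
    exact hb1 (Subtype.ext this.symm)
  have three : ∀ a b c : K1 G, d * a.1 = a.1 * d → d * b.1 = b.1 * d → d * c.1 = c.1 * d →
      a = b ∨ a = c ∨ b = c := by
    intro a b c ha hb hc
    have ext : ∀ u v : K1 G, u.1.1.1 = v.1.1.1 → u = v := fun u v e =>
      Subtype.ext (Subtype.ext (Units.ext e))
    rcases cd' a ha with e1 | e1 <;> rcases cd' b hb with e2 | e2 <;> rcases cd' c hc with e3 | e3 <;>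
      first
      | exact Or.inl (ext _ _ (e1.trans e2.symm))
      | exact Or.inr (Or.inl (ext _ _ (e1.trans e3.symm)))
      | exact Or.inr (Or.inr (ext _ _ (e2.trans e3.symm)))
  obtain ⟨Q⟩ : Nonempty (Sylow p (K1 G)) := inferInstance
  have hidx : (Q : Subgroup (K1 G)).index ∣ 2 := by
    rw [Nat.dvd_iff_prime_pow_dvd_dvd]
    intro l k hl hk
    haveI := Fact.mk hl
    by_cases k0 : k = 0
    · rw [k0]; exact one_dvd _
    have hlp : l ≠ p := by
      rintro rfl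
      exact Q.not_dvd_index ((dvd_pow_self _ k0).trans hk)
    have hk' := hk.trans (Subgroup.index_dvd_card _)
    have hl7 : l ≠ 7 := by
      rintro rfl
      exact n7 ((dvd_pow_self _ k0).trans hk')
    obtain ⟨S0⟩ : Nonempty (Sylow l (K1 G)) := inferInstance
    obtain ⟨S, hS⟩ := invS l fun e => n7 (e.trans (S0.card_dvd_index.trans (Subgroup.index_dvd_card _)))
    refine (S.pow_dvd_card_of_pow_dvd_card hk').trans ?_
    let f : K1 G →* GL (Fin 4) F := (r4 h2 G).toHomUnits.comp (K1 G).subtype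
    have hc := Cfsg.Agent.C7.hh (n := 4) le_rfl hl hl7
      (fun e => hlp ((Nat.prime_dvd_prime_iff_eq Fact.out hl).1 ((CharP.cast_eq_zero_iff F p l).1 e)).symm)
      h7 (S.isPGroup'.map f) (δ := (r4 h2 G).toHomUnits d) (by rw [← map_pow, hd7, map_one]) (by
        rintro _ ⟨y, hy, rfl⟩
        refine ⟨_, hS ⟨d, Subgroup.mem_zpowers d⟩ y hy, ?_⟩
        change (r4 h2 G).toHomUnits (d * y.1 * d⁻¹) = _
        rw [map_mul, map_mul, map_inv]
        rfl)
    have hcm : ∀ y : S, d * y.1.1 = y.1.1 * d := by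
      intro y
      have e := congrArg Units.val (hc _ ⟨y.1, y.2, rfl⟩)
      refine r4_inj h2 (by rw [map_mul, map_mul]; exact e) ?_
      have hy : y.1.1.1.1 * E3 F = E3 F := y.1.2
      change d0.1 * y.1.1.1.1 * E3 F = y.1.1.1.1 * d0.1 * E3 F
      rw [Matrix.mul_assoc, hy, Matrix.mul_assoc, ← act3 h2 d.2.2, ← Matrix.mul_assoc, hy]
    haveI := Fintype.ofFinite S
    have c1 : ¬ 2 < Fintype.card S := by
      rw [Fintype.two_lt_card_iff]
      rintro ⟨a, b, c, h1, h3, h4⟩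
      rcases three a.1 b.1 c.1 (hcm a) (hcm b) (hcm c) with e | e | e
      exacts [h1 (Subtype.ext e), h3 (Subtype.ext e), h4 (Subtype.ext e)]
    have c2 : 0 < Fintype.card S := Fintype.card_pos
    rw [Nat.card_eq_fintype_card]
    have c3 : Fintype.card S = 1 ∨ Fintype.card S = 2 := by omega
    rcases c3 with e | e <;> rw [e]
    exact one_dvd _
  haveI hQn : (Q : Subgroup (K1 G)).Normal := by
    rcases (Nat.dvd_prime Nat.prime_two).1 hidx with e | e
    · rw [Subgroup.index_eq_one.1 e]; infer_instance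
    · exact Subgroup.normal_of_index_eq_two e
  haveI := Q.characteristic_of_normal hQn
  have hQ' : ((Q : Subgroup (K1 G)).map (K1 G).subtype).Normal := inferInstance
  let ρ : Representation F (CT G) (Fin 4 → F) :=
    (Matrix.toLinAlgEquiv' (R := F) (n := Fin 4)).toMonoidHom.comp (r4 h2 G)
  have hρ : ∀ g v, ρ g v = r4 h2 G g *ᵥ v := fun g v => by simp [ρ]
  obtain ⟨v, -, hv0, hv⟩ := Sg.Sp2.exists_fix (ρ := ρ) (Q.isPGroup'.map (K1 G).subtype) ⊤
    (fun _ _ _ _ => trivial) top_ne_bot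
  have hinv : ∀ c : CT G, ∀ u ∈ Sg.Fr.fixS ρ ((Q : Subgroup (K1 G)).map (K1 G).subtype),
      ρ c u ∈ Sg.Fr.fixS ρ ((Q : Subgroup (K1 G)).map (K1 G).subtype) := by
    intro c u hu g hg
    have := hu _ (hQ'.conj_mem g hg c⁻¹)
    rw [inv_inv, Sg.Fr.app_mul, Sg.Fr.app_mul] at this
    conv_rhs => rw [← this, Sg.Fr.app_inv']
  have hall := irr4 (μ := ![1, ζ, ζ ^ 4, ζ ^ 9]) (ω := P4 F * (mW ζ * E4 F)) (by
      have e : ![1, ζ, ζ ^ 4, ζ ^ 9] = fun i : Fin 4 => ζ ^ ((i : ℕ) ^ 2) := by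
        funext i; fin_cases i <;> simp
      rw [e]
      intro i j e'
      simp only at e'
      rw [m7 hζ, m7 hζ ((j : ℕ) ^ 2)] at e'
      have := hζ.pow_inj (Nat.mod_lt _ (by norm_num)) (Nat.mod_lt _ (by norm_num)) e'
      clear e'
      revert i j
      decide) (r4_W h2 hζ)
    (fun u hu => by
      have := hinv d u hu
      rwa [hρ, show r4 h2 G d = P4 F * (mD ζ * E4 F) from (by rw [← ed]; rfl), r4_D] at this)
    (fun u hu => by
      have := hinv w u hu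
      rwa [hρ, show r4 h2 G w = P4 F * (mW ζ * E4 F) from (by rw [← ew]; rfl)] at this) hv hv0
  have hQb : (Q : Subgroup (K1 G)) = ⊥ := by
    rw [eq_bot_iff]
    intro y hy
    refine Subtype.ext (r4_inj h2 ?_ (y.2.trans (Matrix.one_mul _).symm))
    change r4 h2 G y.1 = r4 h2 G 1
    rw [map_one]
    ext i j
    have := congrFun (hall j y.1 ⟨y, hy, rfl⟩) i
    rw [hρ] at this
    simpa [one_apply, Pi.single_apply] using this
  rw [hQb, Subgroup.index_bot] at hidx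
  refine cd' x ?_
  by_contra hne
  haveI := Fintype.ofFinite (K1 G)
  have c1 : 2 < Fintype.card (K1 G) := by
    rw [Fintype.two_lt_card_iff]
    refine ⟨1, x, (⟨d, Subgroup.mem_zpowers d⟩ : Subgroup.zpowers d) • x, ?_, ?_, ?_⟩
    · rintro rfl
      exact hne (by simp)
    · intro e
      rw [eq_comm, smul_eq_iff_eq_inv_smul, smul_one] at e
      exact hne (by rw [e]; simp)
    · intro e
      exact hne (mul_inv_eq_iff_eq_mul.1 (congrArg Subtype.val e).symm)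
  have := Nat.le_of_dvd two_pos hidx
  rw [Nat.card_eq_fintype_card] at this
  omega

end K3b

variable {F : Type*} [Field F] [Fintype F] {ζ : F} {G : Subgroup (GL (Fin 7) F)} {p : ℕ}

theorem k3 (hF : FH F p) (hp : p ≠ 2) (h : Ctx ζ G) (hh : ∀ μ : F, In G (mH μ) → μ = 1) (hD : DG G) (hG : GM ζ G) : K3 G := by
  obtain ⟨hpp, hch, hq⟩ := hF
  haveI := Fact.mk hpp
  have h2 : (2 : F) ≠ 0 := fun e => hp ((Nat.prime_dvd_prime_iff_eq hpp Nat.prime_two).1
    ((CharP.cast_eq_zero_iff F p 2).1 (by exact_mod_cast e)))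
  have h7 : (7 : F) ≠ 0 := fun e => by
    have := (Nat.prime_dvd_prime_iff_eq hpp (by norm_num : Nat.Prime 7)).1
      ((CharP.cast_eq_zero_iff F p 7).1 (by exact_mod_cast e))
    omega
  rintro y hy ht ⟨c, hc⟩
  have e1 := K3b.act3 h2 ht
  rw [hc, Matrix.mul_smul, Matrix.mul_one] at e1
  have hc0 : c ≠ 0 := by
    rintro rfl
    obtain ⟨y', -, -, e2⟩ := hy.exists_inv
    have e3 := congrArg (fun M => K3b.P3 F * (y' * M)) e1
    simp only [← Matrix.mul_assoc y', e2, Matrix.one_mul, K3b.PE3, zero_smul, Matrix.mul_zero] at e3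
    exact zero_ne_one e3
  obtain ⟨g, hg, e⟩ := h.smul hy (inv_ne_zero hc0)
  have e2 : y = c • g.1 := by rw [e, smul_smul, mul_inv_cancel₀ hc0, one_smul]
  rcases K3b.main (p := p) h2 h7 h hh hD hG ⟨⟨g, hg, by rw [e, smul_mul_assoc, ht, mul_smul_comm]⟩, by
      change g.1 * K3a.E3 F = K3a.E3 F
      rw [e, Matrix.smul_mul, ← e1, smul_smul, inv_mul_cancel₀ hc0, one_smul]⟩ with e3 | e3
  · exact ⟨c, Or.inl (by rw [e2]; exact congrArg _ e3)⟩
  · exact ⟨-c, Or.inr (by rw [e2, neg_smul, ← smul_neg]; exact congrArg _ e3)⟩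

end Cfsg.Agent.C7
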