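import Cfsg.Agent.C7.Defs

set_option autoImplicit false
open Matrix

namespace Cfsg.Agent.C7
namespace K3a

variable {F : Type*} [Field F] {ζ : F} {G : Subgroup (GL (Fin 7) F)}

/-- the odd vectors -/
def E3 (F : Type*) [Field F] : Matrix (Fin 7) (Fin 3) F :=
  !![0,0,0; 1,0,0; 0,1,0; 0,0,1; 0,0,-1; 0,-1,0; -1,0,0]

/-- block matrices -/
def pat (γ a b c : F) : Mt F :=
  !![γ,0,0,0,0,0,0; 0,1+a,0,0,0,0,a; 0,0,1+b,0,0,b,0; 0,0,0,1+c,c,0,0; 0,0,0,c,1+c,0,0;
    0,0,b,0,0,1+b,0; 0,a,0,0,0,0,1+a]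

theorem pat_mul (γ a b c γ' a' b' c' : F) : pat γ a b c * pat γ' a' b' c' =
    pat (γ * γ') (a + a' + 2 * a * a') (b + b' + 2 * b * b') (c + c' + 2 * c * c') := by
  ext i j
  fin_cases i <;> fin_cases j <;> simp [pat, mul_apply, Fin.sum_univ_seven] <;> ring

theorem pat_H (γ : F) : pat γ 0 0 0 = mH γ := by
  ext i j
  fin_cases i <;> fin_cases j <;> simp [pat, mH]

theorem pat_one : pat (1 : F) 0 0 0 = 1 := by
  ext i j
  fin_cases i <;> fin_cases j <;> simp [pat]

theorem pat_T : pat (-1 : F) (-1) (-1) (-1) = -mT F := by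
  ext i j
  fin_cases i <;> fin_cases j <;> simp +decide [pat, mT]

theorem pat_M (γ a b c : F) : pat γ a b c * mM F = mM F * pat γ c a b := by
  ext i j
  fin_cases i <;> fin_cases j <;> simp +decide [pat, mM, mul_apply, Fin.sum_univ_seven]

theorem rot (h : Ctx ζ G) {γ a b c : F} (hf : In G (pat γ a b c)) : In G (pat γ c a b) := by
  obtain ⟨M', h1, -, h3⟩ := h.m.exists_inv
  have := (h1.mul hf).mul h.m
  rwa [mul_assoc, pat_M, ← mul_assoc, h3, one_mul] at this

/-- a conjugate -/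
def g1 (F : Type*) [Field F] : Mt F :=
  !![0,0,-1,0,0,0,0; 0,-1,0,0,0,0,0; -1,0,0,0,0,0,0; 0,0,0,1,0,0,0; 0,0,0,0,1,0,0;
    0,0,0,0,0,1,0; 0,0,0,0,0,0,1]

/-- a second conjugate -/
def g2 (F : Type*) [Field F] : Mt F :=
  !![0,0,-1,0,0,0,0; 0,0,0,0,0,0,1; 1,0,0,0,0,0,0; 0,0,0,1,0,0,0; 0,0,0,0,1,0,0;
    0,0,0,0,0,1,0; 0,-1,0,0,0,0,0]

theorem g1_B : mB F * pat (-1) (-1) 0 0 = g1 F * mB F := by
  ext i j
  fin_cases i <;> fin_cases j <;> simp +decide [pat, g1, mB, mul_apply, Fin.sum_univ_seven]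

theorem g1_g : g1 F * pat (-1) (-1) 0 0 = g2 F := by
  ext i j
  fin_cases i <;> fin_cases j <;> simp [pat, g1, g2, mul_apply, Fin.sum_univ_seven]

theorem g2_g2 : pat (-1) (-1) 0 0 * (g2 F * g1 F) = diagonal ![-1, -1, -1, 1, 1, 1, -1] := by
  ext i j
  fin_cases i <;> fin_cases j <;> simp [pat, g1, g2, mul_apply, Fin.sum_univ_seven]

theorem no_one (h2 : (2 : F) ≠ 0) (h : Ctx ζ G) (hD : DG G) (hf : In G (pat (-1) (-1) 0 0)) : False := by
  obtain ⟨M', h1, h3, -⟩ := h.b.exists_inv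
  have e1 := (h.b.mul hf).mul h1
  rw [g1_B, mul_assoc, h3, mul_one] at e1
  have e2 := e1.mul hf
  rw [g1_g] at e2
  have e3 := hf.mul (e2.mul e1)
  rw [g2_g2] at e3
  obtain ⟨c, hc⟩ := hD _ e3
  have a0 := hc 0
  have a3 := hc 3
  simp at a0 a3
  apply h2
  linear_combination a3 - a0

theorem one_block (h2 : (2 : F) ≠ 0) (h : Ctx ζ G) (hh : ∀ μ : F, In G (mH μ) → μ = 1) (hD : DG G)
    {γ : F} (hf : In G (pat γ (-1) 0 0)) : False := by
  have hT : In G (pat (-1 : F) (-1) (-1) (-1)) := by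
    rw [pat_T, ← neg_one_smul F]
    exact h.smul h.t (by simp)
  have e1 := hf.mul hf
  rw [pat_mul] at e1
  norm_num at e1
  rw [pat_H] at e1
  have e2 := ((hf.mul (rot h hf)).mul (rot h (rot h hf))).mul hT
  rw [pat_mul, pat_mul, pat_mul] at e2
  norm_num at e2
  rw [pat_H] at e2
  have a1 := hh _ e1
  have a2 := hh _ e2
  have e : γ = -1 := by linear_combination -a2 - γ * a1
  exact no_one h2 h hD (e ▸ hf)

theorem pat_cases (h2 : (2 : F) ≠ 0) (h : Ctx ζ G) (hh : ∀ μ : F, In G (mH μ) → μ = 1) (hD : DG G)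
    {γ a b c : F} (hf : In G (pat γ a b c)) (ha : a = 0 ∨ a = -1) (hb : b = 0 ∨ b = -1)
    (hc : c = 0 ∨ c = -1) : pat γ a b c = 1 ∨ pat γ a b c = -mT F := by
  have hT : In G (pat (-1 : F) (-1) (-1) (-1)) := by
    rw [pat_T, ← neg_one_smul F]
    exact h.smul h.t (by simp)
  have e := hf.mul hT
  rw [pat_mul] at e
  rcases ha with rfl | rfl <;> rcases hb with rfl | rfl <;> rcases hc with rfl | rfl <;> norm_num at e
  · left
    rw [hh γ (pat_H γ ▸ hf), pat_one]
  · exact (one_block h2 h hh hD (rot h hf)).elim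
  · exact (one_block h2 h hh hD (rot h (rot h hf))).elim
  · exact (one_block h2 h hh hD e).elim
  · exact (one_block h2 h hh hD hf).elim
  · exact (one_block h2 h hh hD (rot h (rot h e))).elim
  · exact (one_block h2 h hh hD (rot h e)).elim
  · right
    have := hh _ (pat_H (-γ) ▸ e)
    rw [show γ = -1 by linear_combination -this, pat_T]

theorem cd (h2 : (2 : F) ≠ 0) (h : Ctx ζ G) (hh : ∀ μ : F, In G (mH μ) → μ = 1) (hD : DG G)
    (hG : GM ζ G) {y : Mt F} (hy : In G y) (ht : y * mT F = mT F * y) (h3 : y * E3 F = E3 F)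
    (hd : y * mD ζ = mD ζ * y) : y = 1 ∨ y = -mT F := by
  have z : ∀ i j : Fin 7, j ≠ i → j ≠ -i → y i j = 0 := by
    intro i j h1 h1'
    have e := congrFun (congrFun hd i) j
    simp only [mD, mul_diagonal, diagonal_mul] at e
    by_contra hne
    rw [mul_comm] at e
    have e' := mul_right_cancel₀ hne e
    have m7 : ∀ k : ℕ, ζ ^ k = ζ ^ (k % 7) := fun k => by
      conv_lhs => rw [← Nat.div_add_mod k 7, pow_add, pow_mul, h.prim.pow_eq_one, one_pow, one_mul]
    rw [m7, m7 ((i : ℕ) ^ 2)] at e'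
    have e'' := h.prim.pow_inj (Nat.mod_lt _ (by norm_num)) (Nat.mod_lt _ (by norm_num)) e'
    clear e e' hne
    revert i j
    decide
  have s : ∀ i j : Fin 7, y i (-j) = y (-i) j := by
    intro i j
    have e := congrFun (congrFun ht i) j
    simp only [mT, mul_apply, of_apply, mul_ite, mul_one, mul_zero, ite_mul, one_mul, zero_mul,
      Finset.sum_ite_eq', Finset.mem_univ, if_true] at e
    rw [e]
    rw [Finset.sum_eq_single (-i)] <;> simp +contextual [eq_comm (a := i), neg_eq_iff_eq_neg]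
  have k1 := congrFun (congrFun h3 1) 0
  have k2 := congrFun (congrFun h3 2) 1
  have k3 := congrFun (congrFun h3 3) 2
  simp [E3, mul_apply, Fin.sum_univ_seven] at k1 k2 k3
  have s1 : y 1 6 = y 6 1 := s 1 1
  have s2 : y 2 5 = y 5 2 := s 2 2
  have s3 : y 3 4 = y 4 3 := s 3 3
  have s4 : y 1 1 = y 6 6 := s 1 6
  have s5 : y 2 2 = y 5 5 := s 2 5
  have s6 : y 3 3 = y 4 4 := s 3 4
  have e : y = pat (y 0 0) (y 1 6) (y 2 5) (y 3 4) := by
    ext i j
    fin_cases i <;> fin_cases j <;> simp [pat] <;>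
      first
      | exact z _ _ (by decide) (by decide)
      | linear_combination k1
      | linear_combination k2
      | linear_combination k3
      | linear_combination k1 - s4
      | linear_combination k2 - s5
      | linear_combination k3 - s6
      | exact s1.symm
      | exact s2.symm
      | exact s3.symm
  rw [e]
  refine pat_cases h2 h hh hD (e ▸ hy) ?_ ?_ ?_
  · rcases hG y hy hd 1 (by decide) with h | h
    · exact Or.inl h.1
    · exact Or.inr (by linear_combination h.1 - k1)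
  · rcases hG y hy hd 2 (by decide) with h | h
    · exact Or.inl h.1
    · exact Or.inr (by linear_combination h.1 - k2)
  · rcases hG y hy hd 3 (by decide) with h | h
    · exact Or.inl h.1
    · exact Or.inr (by linear_combination h.1 - k3)

end K3a
end Cfsg.Agent.C7
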