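import Cfsg.Agent.C7.Defs

set_option autoImplicit false
set_option maxRecDepth 100000
open Matrix

namespace Cfsg.Agent.C7

/-- the field with eight elements, `x0 + x1 g + x2 g^2` coded in binary, `g^3 = g + 1` -/
structure K8 where
  /-- the code -/
  v : Fin 8
deriving DecidableEq

namespace K8

/-- the element with a given code -/
def of (n : ℕ) : K8 := ⟨⟨n.mod 8, Nat.mod_lt _ (by decide)⟩⟩

instance instFintypeK8 : Fintype K8 :=
  Fintype.ofEquiv _ (⟨K8.mk, K8.v, fun _ => rfl, fun _ => rfl⟩ : Fin 8 ≃ K8)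

/-- multiplication of codes -/
def mulN (x y : ℕ) : ℕ := (Nat.shiftRight 2821848294356612419217921029917578219971947684264937521152 (Nat.mul 3 (Nat.add (Nat.mul 8 x) y))).mod 8

instance instZeroK8 : Zero K8 := ⟨of 0⟩
instance instOneK8 : One K8 := ⟨of 1⟩
instance instAddK8 : Add K8 := ⟨fun x y => of (Nat.xor x.v.1 y.v.1)⟩
instance instMulK8 : Mul K8 := ⟨fun x y => of (mulN x.v.1 y.v.1)⟩
instance instNegK8 : Neg K8 := ⟨fun x => x⟩
instance instInvK8 : Inv K8 := ⟨fun x => of (Nat.shiftRight 9272648 (Nat.mul 3 x.v.1))⟩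

instance instFieldK8 : Field K8 := Field.ofMinimalAxioms K8 (by decide +kernel) (by decide +kernel)
  (by decide +kernel) (by decide +kernel) (by decide +kernel) (by decide +kernel) (by decide +kernel)
  (by decide +kernel) (by decide +kernel) (by decide +kernel)

/-- the generator -/
def g : K8 := of 2

theorem card : Fintype.card K8 = 8 := by decide +kernel

theorem g3 : g ^ 3 = g + 1 := by decide +kernel

theorem add_self : ∀ x : K8, x + x = 0 := by decide +kernel

instance instCharK8 : CharP K8 2 := CharTwo.of_one_ne_zero_of_two_eq_zero one_ne_zero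
  (by rw [← one_add_one_eq_two]; exact add_self 1)

theorem prim : IsPrimitiveRoot g 7 :=
  (IsPrimitiveRoot.iff (by norm_num)).2 ⟨by decide +kernel, fun l h1 h2 => by
    interval_cases l <;> decide +kernel⟩

theorem fh : FH K8 2 := ⟨Nat.prime_two, inferInstance, Or.inr ⟨card, Or.inl rfl⟩⟩

end K8

/-- the conclusion for one field -/
def MainZ {F : Type*} [Field F] (ζ : F) : Prop :=
  ∀ G : Subgroup (GL (Fin 7) F), Ctx ζ G → SLle G ∨ Nor ζ G

theorem MainZ.transport {F K : Type*} [Field F] [Field K] (e : F ≃+* K) {ζ : F} (h : MainZ (e ζ)) :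
    MainZ ζ := by
  intro G hG
  let φ : GL (Fin 7) F ≃* GL (Fin 7) K := Units.mapEquiv (e.mapMatrix (m := Fin 7)).toMulEquiv
  have key : ∀ M : Mt F, In (G.map φ.toMonoidHom) (e.mapMatrix M) ↔ In G M := by
    intro M
    constructor
    · rintro ⟨_, ⟨g, hg, rfl⟩, h⟩
      exact ⟨g, hg, e.mapMatrix.injective h⟩
    · rintro ⟨g, hg, rfl⟩
      exact ⟨φ g, ⟨g, hg, rfl⟩, rfl⟩
  have sm : ∀ (c : F) (M : Mt F), e.mapMatrix (c • M) = e c • e.mapMatrix M := fun c M => by
    ext i j; simp
  have ea : e.mapMatrix (mA ζ) = mA (e ζ) := by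
    ext i j; simp [mA, diagonal_apply, apply_ite e]
  have eb : e.mapMatrix (mB F) = mB K := by ext i j; simp [mB, apply_ite e]
  have ed : e.mapMatrix (mD ζ) = mD (e ζ) := by
    ext i j; simp [mD, diagonal_apply, apply_ite e]
  have ew : e.mapMatrix (mW ζ) = mW (e ζ) := by ext i j; simp [mW]
  have em : e.mapMatrix (mM F) = mM K := by ext i j; simp [mM, apply_ite e]
  have dt : ∀ M : Mt F, (e.mapMatrix M).det = e M.det := fun M =>
    (e.toRingHom.map_det M).symm
  have hc : Ctx (e ζ) (G.map φ.toMonoidHom) := by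
    refine ⟨hG.prim.map_of_injective e.injective, fun c hc => ?_, fun M hM => ?_, ea ▸ (key _).2 hG.a,
      eb ▸ (key _).2 hG.b, ed ▸ (key _).2 hG.d, ew ▸ (key _).2 hG.w, em ▸ (key _).2 hG.m⟩
    · have := (key _).2 (hG.sc (e.symm c) (by simpa using hc))
      rwa [sm, map_one, e.apply_symm_apply] at this
    · obtain ⟨M, rfl⟩ := e.mapMatrix.surjective M
      obtain ⟨c, hc⟩ := hG.det M ((key M).1 hM)
      exact ⟨e c, by rw [dt, hc, map_pow]⟩
  rcases h _ hc with h | h
  · exact Or.inl fun M hM => (key M).1 (h _ (by rw [dt, hM, map_one]))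
  · refine Or.inr fun g hg => ?_
    obtain ⟨⟨c, i, j, h1⟩, c', i', j', h2⟩ := h _ ((key g).2 hg)
    refine ⟨⟨e.symm c, i, j, e.mapMatrix.injective ?_⟩, e.symm c', i', j', e.mapMatrix.injective ?_⟩
    · rw [map_mul, map_mul, sm, map_mul, map_pow, map_pow, ea, eb, e.apply_symm_apply, h1]
    · rw [map_mul, map_mul, sm, map_mul, map_pow, map_pow, ea, eb, e.apply_symm_apply, h2]

theorem exists_zeta8 {F : Type*} [Field F] [Fintype F] (hF : Fintype.card F = 8) (h : MainZ K8.g) :
    ∃ ζ : F, IsPrimitiveRoot ζ 7 ∧ MainZ ζ := by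
  let e : F ≃+* K8 := FiniteField.ringEquivOfCardEq (by rw [hF, K8.card])
  refine ⟨e.symm K8.g, K8.prim.map_of_injective e.symm.injective, MainZ.transport e ?_⟩
  rwa [e.apply_symm_apply]

end Cfsg.Agent.C7
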