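import Cfsg.Agent.C7.K8a

set_option autoImplicit false
set_option maxRecDepth 100000
open Matrix

namespace Cfsg.Agent.C7

namespace Q8

variable {G : Subgroup (GL (Fin 7) K8)}

theorem two0 (X : M4) : X + X = 0 := by
  ext i j; exact K8.add_self _

theorem comm (h : Ctx K8.g G) (hT : ¬ TVx G) {X Y : M4} (hX : In G (io X)) (hY : In G (io Y))
    (x0 : X 0 0 = 0) (y0 : Y 0 0 = 0) (i j : Fin 4) : X i 0 * Y 0 j = Y i 0 * X 0 j := by
  set Z := Y + X + Y * E0 * X with hZ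
  have z0 : Z 0 0 = 0 := by simp [hZ, E0_apply, x0, y0]
  have zi : ∀ i, Z i 0 = Y i 0 + X i 0 := fun i => by simp [hZ, E0_apply, x0]
  have zj : ∀ j, Z 0 j = Y 0 j + X 0 j := fun j => by simp [hZ, E0_apply, y0]
  have m1 : In G (io Z) := by rw [hZ, ← io_mul]; exact hY.mul hX
  have e1 : io Z * io (Z + Z * E0 * Z) = 1 := by
    rw [io_mul]
    have : Z * E0 * (Z + Z * E0 * Z) = Z * E0 * Z := by
      ext i j; simp [E0_apply, z0]
    rw [this, ← add_assoc, two0, zero_add, two0]; simp [io]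
  have m2 := (hX.mul hY).mul (m1.inv e1)
  rw [io_mul, io_mul] at m2
  have e2 : X + Y + X * E0 * Y + (Z + Z * E0 * Z) + (X + Y + X * E0 * Y) * E0 * (Z + Z * E0 * Z) =
      of fun i j => X i 0 * Y 0 j + Y i 0 * X 0 j := by
    ext i j
    simp only [Matrix.add_apply, E0_apply, z0, zi, zj, x0, y0, of_apply, hZ]
    have := K8.add_self 1
    linear_combination (X i j + Y i j + (Y i 0 + X i 0) * (Y 0 j + X 0 j)) * this
  rw [e2] at m2
  rcases stepA h hT (fun i j e => by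
      have : i = 0 := by simpa using e
      simp [this, x0, y0]) (fun i j e => by
      have : j = 0 := by simpa using e
      simp [this, x0, y0]) m2 with e | e
  · have e3 := congrFun (congrFun e i) j
    simp only [of_apply, Matrix.zero_apply] at e3
    linear_combination e3 - (Y i 0 * X 0 j) * K8.add_self 1
  · exfalso
    have k : ∀ i j, X i 0 * Y 0 j + Y i 0 * X 0 j = d4 cI i j := fun i j => congrFun (congrFun e i) j
    have d : d4 cI 1 1 * (d4 cI 2 2 * d4 cI 3 3 - d4 cI 2 3 * d4 cI 3 2) -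
        d4 cI 1 2 * (d4 cI 2 1 * d4 cI 3 3 - d4 cI 2 3 * d4 cI 3 1) +
        d4 cI 1 3 * (d4 cI 2 1 * d4 cI 3 2 - d4 cI 2 2 * d4 cI 3 1) ≠ 0 := by decide +kernel
    apply d
    simp only [← k]
    ring

def pD : ℕ × ℕ := (140743930871809, 246293826011137)
def pW : ℕ × ℕ := (139222869577729, 139154133320265)

theorem irr : ∀ b1 b2 b3 c : K8, (∀ i, (d4 pD.1 *ᵥ ![0, b1, b2, b3]) i = c * ![0, b1, b2, b3] i) →
    ∀ c' : K8, (∀ i, (d4 pW.1 *ᵥ ![0, b1, b2, b3]) i = c' * ![0, b1, b2, b3] i) →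
    b1 = 0 ∧ b2 = 0 ∧ b3 = 0 := by decide +kernel

theorem pm : pD ∈ allN ∧ pW ∈ allN ∧ d4 pD.2 0 0 = 1 ∧ d4 pW.2 0 0 = 1 :=
  ⟨by decide +kernel, by decide +kernel, by decide +kernel, by decide +kernel⟩

theorem stepB (h : Ctx K8.g G) (hT : ¬ TVx G) {X : M4} (hX : In G (io X)) (x0 : X 0 0 = 0) :
    X = 0 ∨ X = d4 cI := by
  by_cases h1 : Pz true X
  · exact stepC h hT h1 hX x0
  refine stepC h hT (s := false) ?_ hX x0
  have : ∃ j, X 0 j ≠ 0 := by
    by_contra hh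
    push Not at hh
    exact h1 fun i j e => by
      have : i = 0 := by simpa using e
      rw [this, hh]
  obtain ⟨j, hj⟩ := this
  have v : (fun i => X i 0) = ![0, X 1 0, X 2 0, X 3 0] := by
    funext i; fin_cases i <;> simp [x0]
  have key : ∀ p ∈ allN, d4 p.2 0 0 = 1 → ∃ c, ∀ i, (d4 p.1 *ᵥ ![0, X 1 0, X 2 0, X 3 0]) i =
      c * ![0, X 1 0, X 2 0, X 3 0] i := by
    intro p hp h11
    obtain ⟨t1, t2⟩ := tri_all p hp
    have c0 : ∀ i, cj p X i 0 = (d4 p.1 *ᵥ fun i => X i 0) i := fun i => by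
      simp [cj, mul_apply, Fin.sum_univ_four, t2, h11, mulVec, dotProduct]
    have y0 : cj p X 0 0 = 0 := by
      rw [c0]; simp [mulVec, dotProduct, Fin.sum_univ_four, t1, x0]
    refine ⟨cj p X 0 j / X 0 j, fun i => ?_⟩
    have := comm h hT hX (nm_all h p hp X hX) x0 y0 i j
    rw [← v, ← c0]
    field_simp
    linear_combination -this
  obtain ⟨m1, m2, m3, m4⟩ := pm
  obtain ⟨c, hc⟩ := key _ m1 m3
  obtain ⟨c', hc'⟩ := key _ m2 m4
  obtain ⟨b1, b2, b3⟩ := irr _ _ _ c hc c' hc'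
  intro i j e
  have : j = 0 := by simpa using e
  subst this
  fin_cases i <;> simp [x0, b1, b2, b3]

def up : Fin 4 → Fin 7 := ![0, 1, 2, 3]
def f1 : Fin 7 → K8 := ![0, 1, 0, 0, 0, 0, 1]

theorem io_apply (X : M4) (i j : Fin 7) : io X i j = (1 : Mt K8) i j + X (ix i) (ix j) := by
  simp [io, U, Ut, mul_apply]

theorem sym_of {y : Mt K8} (h : y * mT K8 = mT K8 * y) (i j : Fin 7) : y i (-j) = y (-i) j := by
  have := congrFun (congrFun h i) j
  have e : ∀ k : Fin 7, i = -k ↔ k = -i := fun k => by rw [eq_comm, neg_eq_iff_eq_neg]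
  simpa [mT, mul_apply, e] using this

theorem decomp {y : Mt K8} (h : y * mT K8 = mT K8 * y) (h3 : r3 y = 1) :
    y = io (of fun k l => y (up k) (up l) + (1 : M4) k l) := by
  have s := sym_of h
  have r : ∀ i j : Fin 3, r3 y i j = (1 : Matrix (Fin 3) (Fin 3) K8) i j := fun i j => by rw [h3]
  have t := K8.add_self 1
  have r00 := r 0 0; have r01 := r 0 1; have r02 := r 0 2
  have r10 := r 1 0; have r11 := r 1 1; have r12 := r 1 2
  have r20 := r 2 0; have r21 := r 2 1; have r22 := r 2 2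
  simp [r3] at r00 r01 r02 r10 r11 r12 r20 r21 r22
  have n0 : -(0 : Fin 7) = 0 := rfl
  have n1 : -(1 : Fin 7) = 6 := rfl
  have n2 : -(2 : Fin 7) = 5 := rfl
  have n3 : -(3 : Fin 7) = 4 := rfl
  have n4 : -(4 : Fin 7) = 3 := rfl
  have n5 : -(5 : Fin 7) = 2 := rfl
  have n6 : -(6 : Fin 7) = 1 := rfl
  have s4 : ∀ j, y 4 j = y 3 (-j) := fun j => by rw [s, n3]
  have s5 : ∀ j, y 5 j = y 2 (-j) := fun j => by rw [s, n2]
  have s6 : ∀ j, y 6 j = y 1 (-j) := fun j => by rw [s, n1]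
  have s04 : y 0 4 = y 0 3 := by rw [← n3, s, n0]
  have s05 : y 0 5 = y 0 2 := by rw [← n2, s, n0]
  have s06 : y 0 6 = y 0 1 := by rw [← n1, s, n0]
  ext i j
  rw [io_apply]
  fin_cases i <;> fin_cases j <;>
    simp [ix, up, one_apply, s4, s5, s6, s04, s05, s06, n0, n1, n2, n3, n4, n5, n6] <;> grind

theorem det_io (X : M4) : (io X).det = 1 + X 0 0 := by
  rw [io, Matrix.mul_assoc, Matrix.det_one_add_mul_comm, Matrix.mul_assoc, UtU,
    Matrix.det_of_lowerTriangular]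
  · simp [Fin.prod_univ_four, E0, mul_apply, Fin.sum_univ_four]
  · intro i j hij
    have hij : i < j := hij
    have : j ≠ 0 := fun e => by simp [e] at hij
    simp [E0, mul_apply, this, one_apply_ne hij.ne]

theorem p7 : ∀ c : K8, c ^ 7 = 0 ∨ c ^ 7 = 1 := by decide +kernel

end Q8

open Q8 in
theorem k8 {G : Subgroup (GL (Fin 7) K8)} (h : Ctx K8.g G) (hT : ¬ TVx G) : K3 G := by
  rintro y hy ht ⟨c, hc⟩
  have dn : ∀ M, In G M → M.det = 1 := by
    intro M hM
    obtain ⟨M', -, e, -⟩ := hM.exists_inv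
    obtain ⟨a, ha⟩ := h.det M hM
    rcases p7 a with e1 | e1
    · have := congrArg det e
      rw [det_mul, ha, e1, zero_mul, det_one] at this
      exact absurd this zero_ne_one
    · rw [ha, e1]
  have hc0 : c ≠ 0 := by
    rintro rfl
    have s := sym_of ht
    have r0 := congrFun (congrFun hc 0) 0
    have r1 := congrFun (congrFun hc 1) 0
    have r2 := congrFun (congrFun hc 2) 0
    simp [r3] at r0 r1 r2
    have s0 : y 0 6 = y 0 1 := s 0 1
    have s1 : y 1 6 = y 6 1 := s 1 1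
    have s2 : y 2 6 = y 5 1 := s 2 1
    have s3 : y 3 6 = y 4 1 := s 3 1
    have s4 : y 4 6 = y 3 1 := s 4 1
    have s5 : y 5 6 = y 2 1 := s 5 1
    have s6 : y 6 6 = y 1 1 := s 6 1
    have z : y *ᵥ f1 = 0 := by
      funext i
      fin_cases i <;> simp [mulVec, dotProduct, Fin.sum_univ_seven, f1] <;> grind
    have := Matrix.eq_zero_of_mulVec_eq_zero (by rw [dn y hy]; exact one_ne_zero) z
    exact absurd this (by decide +kernel)
  have hy' := h.smul hy (inv_ne_zero hc0)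
  have ht' : c⁻¹ • y * mT K8 = mT K8 * c⁻¹ • y := by rw [smul_mul_assoc, ht, mul_smul_comm]
  have h3 : r3 (c⁻¹ • y) = 1 := by
    have : r3 (c⁻¹ • y) = c⁻¹ • r3 y := by ext i j; simp [r3, mul_sub]
    rw [this, hc, smul_smul, inv_mul_cancel₀ hc0, one_smul]
  have e := decomp ht' h3
  have d1 := dn _ hy'
  rw [e] at hy' d1
  rw [det_io, add_eq_left] at d1
  have f : y = c • (c⁻¹ • y) := by rw [smul_smul, mul_inv_cancel₀ hc0, one_smul]
  rcases stepB h hT hy' d1 with e1 | e1 <;> rw [e1] at e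
  · exact ⟨c, Or.inl (by rw [f, e]; simp [io])⟩
  · exact ⟨c, Or.inr (by rw [f, e, B4.2.2.1])⟩

end Cfsg.Agent.C7
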