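import Cfsg.Agent.C7.TvB
import Cfsg.Agent.C7.Syl
import Cfsg.Agent.C7.Hom
import Cfsg.Agent.C7.Gam
import Cfsg.Agent.C7.Dg
import Cfsg.Agent.C7.Bs
import Cfsg.Agent.C7.K8

set_option autoImplicit false
open Matrix

namespace Cfsg.Agent.C7

variable {F : Type*} [Field F] [Fintype F] {ζ : F} {p : ℕ}

theorem no_hom {G : Subgroup (GL (Fin 7) F)} (hF : FH F p) (hp : p ≠ 2) (h : Ctx ζ G)
    (hrefl : In G (mH (-1 : F)) → TVx G) (hT : ¬ TVx G) (μ : F) (hm : In G (mH μ)) : μ = 1 := by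
  by_contra h1
  have h0 : μ ≠ 0 := by
    obtain ⟨M, -, e, -⟩ := hm.exists_inv
    rintro rfl
    have := congrFun (congrFun e 0) 0
    simp [mH] at this
  have hf : IsOfFinOrder μ := isOfFinOrder_iff_pow_eq_one.2
    ⟨Fintype.card F - 1, Nat.sub_pos_of_lt Fintype.one_lt_card,
      FiniteField.pow_card_sub_one_eq_one μ h0⟩
  have hn : orderOf μ ≠ 1 := fun e => h1 (orderOf_eq_one_iff.1 e)
  obtain ⟨l, hl, k, hk⟩ := Nat.exists_prime_and_dvd hn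
  have hr : IsPrimitiveRoot (μ ^ k) l :=
    (IsPrimitiveRoot.orderOf μ).pow hf.orderOf_pos (hk.trans (mul_comm _ _))
  have hm' : In G (mH (μ ^ k)) := Hom.mH_pow μ k ▸ hm.pow k
  rcases hl.two_le.eq_or_lt with rfl | h3
  · exact hT (hrefl (hr.eq_neg_one_of_two_right ▸ hm'))
  · exact hT (hom hF hp h hl h3 hr hm')

theorem mainOdd (hF : FH F p) (hp : p ≠ 2)
    (htvA : ∀ {G : Subgroup (GL (Fin 7) F)}, Ctx ζ G → ∀ {v φ v' φ' : Fin 7 → F}, Tr G v φ →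
      Tr G v' φ' → (φ ⬝ᵥ v') * (φ' ⬝ᵥ v) ≠ 0 →
      (Fintype.card F = p ∨ ((φ ⬝ᵥ v') * (φ' ⬝ᵥ v)) ^ p ≠ (φ ⬝ᵥ v') * (φ' ⬝ᵥ v)) → SLle G)
    (hrefl : ∀ {G : Subgroup (GL (Fin 7) F)}, Ctx ζ G → In G (mH (-1 : F)) → TVx G)
    (hk3 : ∀ {G : Subgroup (GL (Fin 7) F)}, Ctx ζ G → (∀ μ : F, In G (mH μ) → μ = 1) → DG G →
      GM ζ G → K3 G)
    (hmit : ∀ {G : Subgroup (GL (Fin 7) F)}, Ctx ζ G → DG G → GM ζ G → K3 G → UI G ∧ CO G) :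
    MainZ ζ := by
  intro G h
  by_cases hT : TVx G
  · obtain ⟨v, φ, v', φ', h1, h2, h0, hl⟩ := tvB hF h hT
    exact Or.inl (htvA h h1 h2 h0 hl)
  · have hh := no_hom hF hp h (hrefl h) hT
    have hD := dg h hh
    have hG := gam hF hp h hD
    obtain ⟨hU, hO⟩ := hmit h hD hG (hk3 h hh hD hG)
    exact Or.inr (bs h hU hO)

theorem main8
    (htvC : ∀ {G : Subgroup (GL (Fin 7) K8)}, Ctx K8.g G → ∀ {v φ v' φ' : Fin 7 → K8}, Tr G v φ →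
      Tr G v' φ' → ((φ ⬝ᵥ v') * (φ' ⬝ᵥ v)) ^ 2 ≠ (φ ⬝ᵥ v') * (φ' ⬝ᵥ v) → SLle G)
    (hk8 : ∀ {G : Subgroup (GL (Fin 7) K8)}, Ctx K8.g G → ¬ TVx G → K3 G)
    (hu8 : ∀ {G : Subgroup (GL (Fin 7) K8)}, Ctx K8.g G → K3 G → UI G ∧ CO G) : MainZ K8.g := by
  intro G h
  by_cases hT : TVx G
  · obtain ⟨v, φ, v', φ', h1, h2, -, hl⟩ := tvB K8.fh h hT
    exact Or.inl (htvC h h1 h2 (hl.resolve_left (by rw [K8.card]; decide)))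
  · obtain ⟨hU, hO⟩ := hu8 h (hk8 h hT)
    exact Or.inr (bs h hU hO)

theorem exists_zeta (hF : FH F p) : ∃ ζ : F, IsPrimitiveRoot ζ 7 := by
  classical
  have h7 : 7 ∣ Fintype.card Fˣ := by
    rw [Fintype.card_units]
    refine (Nat.modEq_iff_dvd' Fintype.card_pos).1 (Nat.ModEq.symm ?_)
    obtain ⟨-, -, ⟨h1, h2⟩ | ⟨h1, h2 | h2⟩⟩ := hF <;> rw [h1, Nat.ModEq] <;>
      simp [Nat.pow_mod, h2]
  haveI : Fact (Nat.Prime 7) := ⟨by norm_num⟩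
  obtain ⟨u, hu⟩ := exists_prime_orderOf_dvd_card 7 h7
  exact ⟨u, IsPrimitiveRoot.coe_units_iff.2 (hu ▸ IsPrimitiveRoot.orderOf u)⟩

theorem main_of (hF : FH F p) (hodd : p ≠ 2 → ∀ ζ : F, MainZ ζ) (h8 : MainZ K8.g) :
    ∃ ζ : F, IsPrimitiveRoot ζ 7 ∧ MainZ ζ := by
  by_cases hp : p = 2
  · subst hp
    obtain ⟨-, -, ⟨-, h2⟩ | ⟨h1, -⟩⟩ := hF
    · simp at h2
    · exact exists_zeta8 h1 h8
  · obtain ⟨ζ, hζ⟩ := exists_zeta hF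
    exact ⟨ζ, hζ, hodd hp ζ⟩

end Cfsg.Agent.C7
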