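import Cfsg.Agent.C7.Defs
import Cfsg.Agent.H7.C2Dick

/-! Two-dimensional blocks and Dickson's theorem. -/

set_option autoImplicit false
open Matrix

namespace Cfsg.Agent.C7.P2

open Cfsg.Agent.H6 Cfsg.Agent.H6.Pg
open scoped MatrixGroups OnePoint

variable {F : Type*} [Field F]

abbrev M2 (F : Type*) := Matrix (Fin 2) (Fin 2) F

open Classical in
theorem cd_fix {A B : M2 F} (hA : A.det ≠ 0) (hB : B.det ≠ 0) {x : Pt F} (h1 : pg A • x = x)
    (h2 : pg B • x = x) : (A * B - B * A).det = 0 := by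
  set f := algebraMap F (AlgebraicClosure F) with hf
  have e1 : pg (A.map f) • (show OnePoint (AlgebraicClosure F) from x) = x := by
    rw [← map_pg]; exact h1
  have e2 : pg (B.map f) • (show OnePoint (AlgebraicClosure F) from x) = x := by
    rw [← map_pg]; exact h2
  apply f.injective
  have dA := det_map_ne f hA
  have dB := det_map_ne f hB
  rw [map_zero, ← Pg.det_map, Matrix.map_sub f (map_sub f), Matrix.map_mul, Matrix.map_mul]
  generalize A.map f = A' at *
  generalize B.map f = B' at *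
  induction x using OnePoint.rec with
  | infty =>
    erw [pg_infty dA] at e1
    erw [pg_infty dB] at e2
    have a : A' 1 0 = 0 := by
      by_contra h
      rw [if_neg h] at e1
      exact OnePoint.coe_ne_infty _ e1
    have b : B' 1 0 = 0 := by
      by_contra h
      rw [if_neg h] at e2
      exact OnePoint.coe_ne_infty _ e2
    simp [det_fin_two, mul_apply, Fin.sum_univ_two, a, b]
    ring_nf
    simp
  | coe k =>
    erw [pg_some dA] at e1
    erw [pg_some dB] at e2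
    have g : ∀ C : M2 (AlgebraicClosure F), (if C 1 0 * k + C 1 1 = 0 then ∞ else
        (((C 0 0 * k + C 0 1) / (C 1 0 * k + C 1 1) : AlgebraicClosure F) :
          OnePoint (AlgebraicClosure F))) = (k : OnePoint (AlgebraicClosure F)) →
        C 0 1 = k * (C 1 0 * k + C 1 1) - C 0 0 * k := fun C e => by
      by_cases h : C 1 0 * k + C 1 1 = 0
      · rw [if_pos h] at e
        exact absurd e (OnePoint.infty_ne_coe _)
      · rw [if_neg h, OnePoint.coe_eq_coe, div_eq_iff h] at e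
        linear_combination e
    have a := g _ e1
    have b := g _ e2
    simp only [det_fin_two, Matrix.sub_apply, Matrix.mul_apply, Fin.sum_univ_two, a, b]
    ring

/-- Dickson's theorem for a group with two elements in general position. -/
theorem dk [Finite F] (p : ℕ) [Fact p.Prime] [CharP F p] (M : Subgroup PGL(2, F)) {A B : M2 F}
    (hA : A.det ≠ 0) (hB : B.det ≠ 0) (tA : A.trace ≠ 0) (tB : B.trace ≠ 0)
    (hc : (A * B - B * A).det ≠ 0) (mA : pg A ∈ M) (mB : pg B ∈ M) :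
    (∀ g ∈ M, orderOf g ∣ 2 ∨ orderOf g ∣ 3 ∨ orderOf g ∣ 4 ∨ orderOf g ∣ 5) ∨
      ∃ (h : PGL(2, F)) (L : Subfield F), PS L ≤ cj h M ∧ cj h M ≤ PG L := by
  have m := mobF F p
  rcases Pg.dickson p M with ⟨z, hz⟩ | ⟨z, w, hzw, hz⟩ | ⟨-, e⟩ | ⟨-, e⟩ |
    ⟨-, -, e⟩ | ⟨g, L, -, h1, h2⟩
  · exact absurd (cd_fix hA hB (hz mA) (hz mB)) hc
  · have f : ∀ C : M2 F, C.det ≠ 0 → C.trace ≠ 0 → pg C ∈ M → pg C • z = z := fun C d t hg => by
      rcases Mob.mem_pair.1 (hz hg) with e | e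
      · exact e.1
      · by_cases h1 : pg C = 1
        · rw [h1, one_smul]
        have := m.sq_of_swap hzw e.1 e.2
        rw [← _root_.sq, pow_two_iff h1, tau_pg d] at this
        simp [d, t] at this
    exact absurd (cd_fix hA hB (f _ hA tA mA) (f _ hB tB mB)) hc
  · exact Or.inl fun g hg => by have := order_A4 e hg; tauto
  · exact Or.inl fun g hg => by have := order_S4 e hg; tauto
  · exact Or.inl fun g hg => by have := order_A5 e hg; tauto
  · exact Or.inr ⟨g, L, h1, h2⟩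

theorem tau_small {M : Subgroup PGL(2, F)}
    (H : ∀ g ∈ M, orderOf g ∣ 2 ∨ orderOf g ∣ 3 ∨ orderOf g ∣ 4 ∨ orderOf g ∣ 5) {A : M2 F}
    (hA : A.det ≠ 0) (h0 : A 0 1 ≠ 0) (hm : pg A ∈ M) {t : F} (ht : A.trace ^ 2 = t * A.det) :
    t = 0 ∨ t = 1 ∨ t = 2 ∨ t ^ 2 - 3 * t + 1 = 0 := by
  have := H7.Dick.tau_cases (g := pg A) (fun e => h0 ((pg_eq_one hA).1 e).1) (H _ hm)
  rwa [tau_pg hA, ht, mul_div_cancel_right₀ _ hA] at this

theorem ord_small {M : Subgroup PGL(2, F)}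
    (H : ∀ g ∈ M, orderOf g ∣ 2 ∨ orderOf g ∣ 3 ∨ orderOf g ∣ 4 ∨ orderOf g ∣ 5) {μ : F} {l : ℕ}
    (hμ : IsPrimitiveRoot μ l) (h0 : μ ≠ 0) (hm : pg !![μ, 0; 0, 1] ∈ M) :
    l ∣ 2 ∨ l ∣ 3 ∨ l ∣ 4 ∨ l ∣ 5 := by
  have k : ∀ n, pg !![μ, 0; 0, 1] ^ n = 1 → l ∣ n := fun n e => by
    have e1 : (!![μ, 0; 0, 1] : M2 F) ^ n = !![μ ^ n, 0; 0, 1] := by
      clear e
      induction n with
      | zero => simp [Matrix.one_fin_two]
      | succ n ih => rw [pow_succ, ih]; simp [pow_succ]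
    rw [pg_pow (by simpa), e1, pg_eq_one (by simp [h0])] at e
    exact (hμ.pow_eq_one_iff_dvd n).1 (by simpa using e.2.2)
  simpa only [orderOf_dvd_iff_pow_eq_one] using
    (H _ hm).imp (fun e => k _ (orderOf_dvd_iff_pow_eq_one.1 e)) (Or.imp (fun e => k _
      (orderOf_dvd_iff_pow_eq_one.1 e)) (Or.imp (fun e => k _ (orderOf_dvd_iff_pow_eq_one.1 e))
        fun e => k _ (orderOf_dvd_iff_pow_eq_one.1 e)))

section em

variable {κ : Type*} [Fintype κ] [DecidableEq κ] {P : Matrix (Fin 7) κ F} {Q : Matrix κ (Fin 7) F}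

/-- `A` on the image of `P`, and `D` on the kernel of `Q`. -/
def em (P : Matrix (Fin 7) κ F) (Q : Matrix κ (Fin 7) F) (D : Mt F) (A : Matrix κ κ F) : Mt F :=
  D + P * (A - 1) * Q

theorem em_mul (h : Q * P = 1) {D D' : Mt F} (h1 : D * P = P) (h2 : Q * D' = Q)
    (A B : Matrix κ κ F) : em P Q D A * em P Q D' B = em P Q (D * D') (A * B) := by
  have e : P * (A - 1) * Q * (P * (B - 1) * Q) = P * ((A - 1) * (B - 1)) * Q := by
    simp only [Matrix.mul_assoc]
    rw [← Matrix.mul_assoc Q P, h, Matrix.one_mul]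
  have e1 : D * (P * (B - 1) * Q) = P * (B - 1) * Q := by
    rw [← Matrix.mul_assoc, ← Matrix.mul_assoc, h1]
  have e2 : P * (A - 1) * Q * D' = P * (A - 1) * Q := by rw [Matrix.mul_assoc _ Q, h2]
  rw [em, em, em, add_mul, mul_add, mul_add, e, e1, e2,
    show A * B - 1 = (B - 1) + ((A - 1) + (A - 1) * (B - 1)) by noncomm_ring]
  simp only [Matrix.mul_add, Matrix.add_mul, add_assoc]

theorem em_one (D : Mt F) : em P Q D 1 = D := by simp [em]

theorem em_mul1 (h : Q * P = 1) (A B : Matrix κ κ F) :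
    em P Q 1 A * em P Q 1 B = em P Q 1 (A * B) := by
  rw [em_mul h (Matrix.one_mul _) (Matrix.mul_one _), one_mul]

theorem em_pow (h : Q * P = 1) {D : Mt F} (h1 : D * P = P) (h2 : Q * D = Q) (A : Matrix κ κ F)
    (n : ℕ) : em P Q D A ^ n = em P Q (D ^ n) (A ^ n) ∧ D ^ n * P = P := by
  induction n with
  | zero => simp [em_one]
  | succ n ih =>
    refine ⟨by rw [pow_succ, ih.1, em_mul h ih.2 h2, ← pow_succ, ← pow_succ], ?_⟩
    rw [pow_succ, Matrix.mul_assoc, h1, ih.2]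

end em

variable {P : Matrix (Fin 7) (Fin 2) F} {Q : Matrix (Fin 2) (Fin 7) F}
  {G : Subgroup (GL (Fin 7) F)}

/-- admissible complements -/
def Dm (P : Matrix (Fin 7) (Fin 2) F) (Q : Matrix (Fin 2) (Fin 7) F) (D : Mt F) : Prop :=
  D * P = P ∧ Q * D = Q ∧ ∃ f : Fin 7 → F, (∀ i, f i ≠ 0) ∧ D = diagonal f

theorem Dm.one : Dm P Q 1 := ⟨Matrix.one_mul _, Matrix.mul_one _, fun _ => 1, by simp, by simp⟩

/-- The group induced on the block; `S` is a condition on determinants. -/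
def MM [Finite F] (G : Subgroup (GL (Fin 7) F)) (h : Q * P = 1) (S : Submonoid F) :
    Subgroup PGL(2, F) :=
  let N : Submonoid PGL(2, F) :=
    { carrier := {g | ∃ A D, A.det ≠ 0 ∧ A.det ∈ S ∧ pg A = g ∧ Dm P Q D ∧ In G (em P Q D A)}
      one_mem' := ⟨1, 1, by simp, by simp, pg_one, Dm.one, by rw [em_one]; exact In.one⟩
      mul_mem' := by
        rintro _ _ ⟨A, D, a1, a2, rfl, ⟨a3, a4, f, a5, rfl⟩, a6⟩
          ⟨B, E, b1, b2, rfl, ⟨b3, b4, g, b5, rfl⟩, b6⟩
        refine ⟨A * B, diagonal f * diagonal g, by simp [a1, b1], by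
          rw [det_mul]; exact S.mul_mem a2 b2, (pg_mul a1 b1).symm, ⟨?_, ?_, fun i => f i * g i,
            fun i => mul_ne_zero (a5 i) (b5 i), diagonal_mul_diagonal _ _⟩, ?_⟩
        · rw [Matrix.mul_assoc, b3, a3]
        · rw [← Matrix.mul_assoc, a4, b4]
        · rw [← em_mul h a3 b4]
          exact a6.mul b6 }
  { N with
    inv_mem' := fun {g} hg => by
      have : g⁻¹ = g ^ (orderOf g - 1) := by
        rw [inv_eq_iff_mul_eq_one, ← pow_succ', Nat.sub_add_cancel (orderOf_pos g),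
          pow_orderOf_eq_one]
      rw [this]
      exact N.pow_mem hg _ }

theorem mem_MM [Finite F] {h : Q * P = 1} {S : Submonoid F} {g : PGL(2, F)} : g ∈ MM G h S ↔
    ∃ A D, A.det ≠ 0 ∧ A.det ∈ S ∧ pg A = g ∧ Dm P Q D ∧ In G (em P Q D A) := Iff.rfl

theorem pow_nil {N : M2 F} (h : N * N = 0) (n : ℕ) : (1 + N) ^ n = 1 + (n : F) • N := by
  induction n with
  | zero => simp
  | succ n ih =>
    rw [pow_succ, ih, add_mul, mul_add, mul_add, smul_mul_assoc, smul_mul_assoc, h]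
    simp only [mul_one, one_mul, smul_zero, add_zero, Nat.cast_succ, add_smul, one_smul]
    abel

/-- a multiple of a unipotent element gives the unipotent element -/
theorem unip [Fintype F] (h : Q * P = 1) {S : Submonoid F} {N : M2 F} (hN : N * N = 0)
    (hd : (1 + N).det ≠ 0) (hm : pg (1 + N) ∈ MM G h S) : In G (em P Q 1 (1 - N)) := by
  obtain ⟨A, D, a1, -, a2, ⟨a3, a4, f, a5, rfl⟩, a6⟩ := hm
  obtain ⟨c, rfl⟩ := (pg_eq_iff hd a1).1 a2.symm
  have hc : c ≠ 0 := by rintro rfl; simp at a1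
  have := a6.pow (Fintype.card F - 1)
  rw [(em_pow h a3 a4 _ _).1, smul_pow, FiniteField.pow_card_sub_one_eq_one c hc, one_smul,
    pow_nil hN, diagonal_pow, Nat.cast_sub Fintype.card_pos, FiniteField.cast_card_eq_zero] at this
  have e : diagonal (f ^ (Fintype.card F - 1)) = 1 := by
    rw [← diagonal_one]
    congr 1
    funext i
    exact FiniteField.pow_card_sub_one_eq_one _ (a5 i)
  rw [e] at this
  simpa [sub_eq_add_neg] using this

theorem big [Fintype F] (h : Q * P = 1) {S : Submonoid F} {k : PGL(2, F)} {L : Subfield F}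
    (hL : PS L ≤ cj k (MM G h S)) : TVx G := by
  obtain ⟨H, hH, rfl⟩ := exists_pg k
  have m := hL (mem_PS.2 ⟨!![1, 1; 0, 1], by simp, fun i j => by
    fin_cases i <;> fin_cases j <;> simp, rfl⟩)
  have hu : IsUnit H.det := isUnit_iff_ne_zero.2 hH
  have i1 := Matrix.mul_nonsing_inv H hu
  have i2 := Matrix.nonsing_inv_mul H hu
  have hH' : H⁻¹.det ≠ 0 := by
    intro e
    have := congrArg det i1
    simp [e] at this
  have e0 : (pg H)⁻¹ = pg H⁻¹ := by
    rw [inv_eq_iff_mul_eq_one, pg_mul hH hH', i1, pg_one]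
  set E : M2 F := vecMulVec ![1, 0] ![0, 1] with hE
  have e1 : (!![1, 1; 0, 1] : M2 F) = 1 + E := by
    ext i j; fin_cases i <;> fin_cases j <;> simp [hE]
  have e2 : E * E = 0 := by
    ext i j; fin_cases i <;> fin_cases j <;> simp [hE, mul_apply, Fin.sum_univ_two]
  have d1 : (!![1, 1; 0, 1] : M2 F).det ≠ 0 := by simp
  have e3 : H⁻¹ * !![1, 1; 0, 1] * H = 1 + H⁻¹ * E * H := by
    rw [e1, mul_add, mul_one, add_mul, i2]
  rw [mem_cj, e0, pg_mul hH' d1, pg_mul (by simp [hH', -det_nonsing_inv]) hH, e3] at m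
  have := unip h (by
    rw [mul_assoc, mul_assoc, ← mul_assoc H, ← mul_assoc H, i1, one_mul, ← mul_assoc E, e2]
    simp) (by rw [← e3]; simp [hH', hH, -det_nonsing_inv]) m
  refine ⟨-((P * H⁻¹) *ᵥ ![1, 0]), ![0, 1] ᵥ* (H * Q), fun e => ?_, fun e => ?_, ?_, ?_⟩
  · have := congrArg (fun v => (H * Q) *ᵥ v) e
    simp only [mulVec_neg, mulVec_mulVec, mulVec_zero, neg_eq_zero] at this
    rw [Matrix.mul_assoc, ← Matrix.mul_assoc Q, h, Matrix.one_mul, i1, one_mulVec] at this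
    simpa using congrFun this 0
  · have := congrArg (fun v => v ᵥ* (P * H⁻¹)) e
    simp only [vecMul_vecMul, zero_vecMul] at this
    rw [Matrix.mul_assoc, ← Matrix.mul_assoc Q, h, Matrix.one_mul, i1, vecMul_one] at this
    simpa using congrFun this 1
  · rw [dotProduct_neg, dotProduct_mulVec, vecMul_vecMul, Matrix.mul_assoc,
      ← Matrix.mul_assoc Q, h, Matrix.one_mul, i1, vecMul_one]
    simp
  · convert this using 1
    rw [em, sub_sub_cancel_left, Matrix.mul_neg, Matrix.neg_mul, neg_vecMulVec, hE,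
      ← mul_vecMulVec, ← vecMulVec_mul]
    simp only [Matrix.mul_assoc]

theorem nz [Fintype F] {p : ℕ} (hF : FH F p) (hp : p ≠ 2) {r : ℕ} (hr : r.Prime)
    (h : r = 2 ∨ (r % 7 ≠ 1 ∧ r % 7 ≠ 2 ∧ r % 7 ≠ 4)) : (r : F) ≠ 0 := by
  obtain ⟨h1, h2, h3⟩ := hF
  rw [Ne, CharP.cast_eq_zero_iff F p, Nat.prime_dvd_prime_iff_eq h1 hr]
  omega

end Cfsg.Agent.C7.P2
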