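import Cfsg.Agent.C7.P2
import Cfsg.Agent.C7.Dg
import Cfsg.Agent.C7.Cen

/-! A reflection gives a transvection. -/

set_option autoImplicit false
open Matrix

namespace Cfsg.Agent.C7
namespace Refl

open Cfsg.Agent.H6 Cfsg.Agent.H6.Pg Cfsg.Agent.C7.P2
open scoped MatrixGroups

variable {F : Type*} [Field F] {ζ : F} {G : Subgroup (GL (Fin 7) F)}

/-- the traceless matrices -/
def xi (a c : F) (v : Fin 3 → F) : M2 F :=
  !![v 1 * a - 5 * v 2 * c, -5 * v 0 + 5 * v 1 * c + 5 * v 2 * a;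
    v 0 + v 1 * c + v 2 * a, -(v 1 * a) + 5 * v 2 * c]

/-- the dual vector -/
def du (w : Fin 3 → F) : Fin 3 → F := ![w 0, w 1, 5 * w 2]

/-- the reflection -/
def rf (w : Fin 3 → F) : Matrix (Fin 3) (Fin 3) F := 1 - (2 / (du w ⬝ᵥ w)) • vecMulVec w (du w)

variable {a c : F}

theorem pol (h : a ^ 2 + 5 * c ^ 2 = -5) (v w : Fin 3 → F) :
    xi a c v * xi a c w + xi a c w * xi a c v = (-10 * (du w ⬝ᵥ v)) • (1 : M2 F) := by
  ext i j
  fin_cases i <;> fin_cases j <;>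
    simp [xi, du, mul_apply, Fin.sum_univ_two, dotProduct, Fin.sum_univ_three]
  · linear_combination (2 * v 1 * w 1 + 10 * v 2 * w 2) * h
  · ring
  · ring
  · linear_combination (2 * v 1 * w 1 + 10 * v 2 * w 2) * h

theorem xi_sq (h : a ^ 2 + 5 * c ^ 2 = -5) (w : Fin 3 → F) :
    xi a c w * xi a c w = (-5 * (du w ⬝ᵥ w)) • (1 : M2 F) := by
  ext i j
  fin_cases i <;> fin_cases j <;>
    simp [xi, du, mul_apply, Fin.sum_univ_two, dotProduct, Fin.sum_univ_three]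
  · linear_combination (w 1 * w 1 + 5 * w 2 * w 2) * h
  · ring
  · ring
  · linear_combination (w 1 * w 1 + 5 * w 2 * w 2) * h

theorem xi_det (h : a ^ 2 + 5 * c ^ 2 = -5) (w : Fin 3 → F) :
    (xi a c w).det = 5 * (du w ⬝ᵥ w) := by
  simp [xi, du, det_fin_two, dotProduct, Fin.sum_univ_three]
  linear_combination (-(w 1 * w 1) - 5 * w 2 * w 2) * h

theorem xi_sub (v w : Fin 3 → F) (k : F) : xi a c (v - k • w) = xi a c v - k • xi a c w := by
  ext i j
  fin_cases i <;> fin_cases j <;> simp [xi] <;> ring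

theorem xi_rf (h : a ^ 2 + 5 * c ^ 2 = -5) {w : Fin 3 → F} (hw : du w ⬝ᵥ w ≠ 0) (v : Fin 3 → F) :
    xi a c w * xi a c v = -(xi a c (rf w *ᵥ v) * xi a c w) := by
  have e : rf w *ᵥ v = v - (2 / (du w ⬝ᵥ w) * (du w ⬝ᵥ v)) • w := by
    rw [rf, sub_mulVec, one_mulVec, smul_mulVec, vecMulVec_mulVec, mul_smul]
    simp
  rw [e, xi_sub, sub_mul, smul_mul_assoc, xi_sq h, smul_smul,
    show 2 / (du w ⬝ᵥ w) * (du w ⬝ᵥ v) * (-5 * (du w ⬝ᵥ w)) = -10 * (du w ⬝ᵥ v) by field_simp; ring,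
    ← pol h]
  abel

/-- `T` is the action of `A` by conjugation -/
def Ad (a c : F) (A : M2 F) (T : Matrix (Fin 3) (Fin 3) F) : Prop :=
  ∀ v, A * xi a c v = xi a c (T *ᵥ v) * A

theorem Ad.mul {A B : M2 F} {T S : Matrix (Fin 3) (Fin 3) F} (h : Ad a c A T) (h' : Ad a c B S) :
    Ad a c (A * B) (T * S) := fun v => by
  rw [mul_assoc, h', ← mul_assoc, h, mulVec_mulVec, mul_assoc]

theorem ad_rf (h : a ^ 2 + 5 * c ^ 2 = -5) {w u : Fin 3 → F} (hw : du w ⬝ᵥ w ≠ 0)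
    (hu : du u ⬝ᵥ u ≠ 0) : Ad a c (xi a c w * xi a c u) (rf w * rf u) := fun v => by
  rw [mul_assoc, xi_rf h hu, mul_neg, ← mul_assoc, xi_rf h hw, neg_mul, neg_neg, mulVec_mulVec,
    mul_assoc]

theorem Ad.uniq (h : a ^ 2 + 5 * c ^ 2 = -5) (h2 : (2 : F) ≠ 0) (h5 : (5 : F) ≠ 0) {A : M2 F}
    {T S : Matrix (Fin 3) (Fin 3) F} (hA : A.det ≠ 0) (h1 : Ad a c A T) {k : F}
    (hk : k ≠ 0) (h3 : Ad a c (k • A) S) : S = T := by
  have h10 : (-10 : F) ≠ 0 := by
    rw [show (-10 : F) = -(2 * 5) by norm_num]; exact neg_ne_zero.2 (mul_ne_zero h2 h5)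
  refine Matrix.ext_iff_mulVec.2 fun v => ?_
  have e := h3 v
  rw [smul_mul_assoc, mul_smul_comm, h1] at e
  have e1 := smul_right_injective _ hk e
  have e2 : xi a c (T *ᵥ v - (1 : F) • S *ᵥ v) = 0 := by
    rw [xi_sub, one_smul, sub_eq_zero]
    exact (isUnit_iff_isUnit_det _ |>.2 (isUnit_iff_ne_zero.2 hA)).mul_right_cancel e1
  have e3 : ∀ w, du w ⬝ᵥ (T *ᵥ v - (1 : F) • S *ᵥ v) = 0 := fun w => by
    have := congrFun (congrFun (pol h (T *ᵥ v - (1 : F) • S *ᵥ v) w) 0) 0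
    rw [e2] at this
    simp only [mul_zero, zero_mul, add_zero, Matrix.zero_apply, Matrix.smul_apply, one_apply_eq,
      smul_eq_mul, mul_one] at this
    exact (mul_eq_zero.1 this.symm).resolve_left h10
  rw [one_smul] at e3
  symm
  rw [← sub_eq_zero]
  generalize T *ᵥ v - S *ᵥ v = d at e3
  have a0 := e3 ![1, 0, 0]
  have a1 := e3 ![0, 1, 0]
  have a2 := e3 ![0, 0, 1]
  simp [du, dotProduct, Fin.sum_univ_three, h5] at a0 a1 a2
  ext i
  fin_cases i <;> simp [a0, a1, a2]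

/-- the block of dimension three -/
def P3 (F : Type*) [Field F] : Matrix (Fin 7) (Fin 3) F :=
  !![1, 0, 0; 0, 1, 0; 0, 0, 1; 0, 0, 1; 0, 0, 1; 0, 0, 1; 0, 0, 1]

/-- the projection to the block -/
def Q3 (F : Type*) [Field F] : Matrix (Fin 3) (Fin 7) F :=
  !![1, 0, 0, 0, 0, 0, 0; 0, 1, 0, 0, 0, 0, 0; 0, 0, 5⁻¹, 5⁻¹, 5⁻¹, 5⁻¹, 5⁻¹]

theorem QP3 (h5 : (5 : F) ≠ 0) : Q3 F * P3 F = 1 := by
  ext i j
  fin_cases i <;> fin_cases j <;> simp [P3, Q3, mul_apply, Fin.sum_univ_seven]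
  field_simp
  norm_num

theorem em_rf {κ : Type*} [Fintype κ] [DecidableEq κ] (P : Matrix (Fin 7) κ F)
    (Q : Matrix κ (Fin 7) F) (k : F) (x y : κ → F) :
    em P Q 1 (1 - k • vecMulVec x y) = 1 - k • vecMulVec (P *ᵥ x) (y ᵥ* Q) := by
  rw [P2.em, sub_sub_cancel_left, Matrix.mul_neg, Matrix.neg_mul, Matrix.mul_smul, Matrix.smul_mul,
    mul_vecMulVec, vecMulVec_mul, sub_eq_add_neg]

theorem em3 (h5 : (5 : F) ≠ 0) (x y z : F) : em (P3 F) (Q3 F) 1 (rf ![x, y, z]) =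
    1 - (2 / (x * x + y * y + 5 * z * z)) • vecMulVec ![x, y, z, z, z, z, z] ![x, y, z, z, z, z, z] := by
  rw [rf, em_rf]
  congr 3
  · simp [du, dotProduct, Fin.sum_univ_three]
  · ext i; fin_cases i <;> simp [P3, mulVec, dotProduct, Fin.sum_univ_three]
  · ext i; fin_cases i <;> simp [Q3, du, vecMul, dotProduct, Fin.sum_univ_three] <;> field_simp

/-- the group induced on the block of dimension three -/
def M3 [Finite F] (G : Subgroup (GL (Fin 7) F)) (a c : F) (h5 : (5 : F) ≠ 0) : Subgroup PGL(2, F) :=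
  let N : Submonoid PGL(2, F) :=
    { carrier := {g | ∃ A T, A.det ≠ 0 ∧ pg A = g ∧ Ad a c A T ∧ In G (em (P3 F) (Q3 F) 1 T)}
      one_mem' := ⟨1, 1, by simp, pg_one, fun v => by simp, by rw [em_one]; exact In.one⟩
      mul_mem' := by
        rintro _ _ ⟨A, D, a1, rfl, a3, a6⟩ ⟨B, E, b1, rfl, b3, b6⟩
        refine ⟨A * B, D * E, by simp [a1, b1], (pg_mul a1 b1).symm, a3.mul b3, ?_⟩
        rw [← em_mul1 (QP3 h5)]
        exact a6.mul b6 }
  { N with
    inv_mem' := fun {g} hg => by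
      have : g⁻¹ = g ^ (orderOf g - 1) := by
        rw [inv_eq_iff_mul_eq_one, ← pow_succ', Nat.sub_add_cancel (orderOf_pos g),
          pow_orderOf_eq_one]
      rw [this]
      exact N.pow_mem hg _ }

theorem ent {L : Subfield F} {A : M2 F} (hA : A.det ≠ 0) (ht : A.trace = -10) (h10 : (-10 : F) ≠ 0)
    (hm : pg A ∈ PG L) (i j : Fin 2) : A i j ∈ L := by
  obtain ⟨Z, z1, z2, z3⟩ := mem_PG.1 hm
  obtain ⟨k, rfl⟩ := (pg_eq_iff z1 hA).1 z3
  rw [trace_smul, smul_eq_mul] at ht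
  have h1 : Z.trace ≠ 0 := fun e => h10 (by rw [← ht, e, mul_zero])
  have h2 : Z.trace ∈ L := by rw [trace_fin_two]; exact add_mem (z2 _ _) (z2 _ _)
  have h3 : k = -10 / Z.trace := eq_div_of_mul_eq h1 ht
  rw [Matrix.smul_apply, smul_eq_mul, h3]
  exact mul_mem (div_mem (neg_mem (ofNat_mem L 10)) h2) (z2 i j)

theorem sgn0 (hm : In G (mH (-1 : F))) :
    In G (1 - (2 : F) • vecMulVec ![1, 0, 0, 0, 0, 0, 0] ![1, 0, 0, 0, 0, 0, 0]) := by
  convert hm using 1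
  ext i j
  fin_cases i <;> fin_cases j <;> simp [mH, vecMulVec_apply]
  norm_num

theorem sgn1 (h : Ctx ζ G) (hm : In G (mH (-1 : F))) :
    In G (1 - (2 : F) • vecMulVec ![0, 1, 0, 0, 0, 0, 0] ![0, 1, 0, 0, 0, 0, 0]) := by
  convert Dg.shift h hm 6 using 1
  ext i j
  fin_cases i <;> fin_cases j <;> simp +decide [vecMulVec_apply]
  norm_num

theorem sgnU (h : Ctx ζ G) (hm : In G (mH (-1 : F))) :
    In G (1 - (2 / 7 : F) • vecMulVec ![1, 1, 1, 1, 1, 1, 1] ![1, 1, 1, 1, 1, 1, 1]) := by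
  obtain ⟨M', h1, h2, -⟩ := h.w.exists_inv
  have h7 := Cen.seven_ne h.prim
  have e : mW ζ * mH (-1) =
      (1 - (2 / 7 : F) • vecMulVec ![1, 1, 1, 1, 1, 1, 1] ![1, 1, 1, 1, 1, 1, 1]) * mW ζ := by
    have e1 : (![1, 1, 1, 1, 1, 1, 1] : Fin 7 → F) = fun _ => 1 := by
      ext i; fin_cases i <;> rfl
    rw [sub_mul, one_mul, smul_mul_assoc, vecMulVec_mul, e1]
    ext i j
    have := Cen.sum_ch h.prim j
    simp only [Cen.ch_mul h.prim.pow_eq_one] at this
    simp only [mH, mul_diagonal, Matrix.sub_apply, Matrix.smul_apply, vecMulVec_apply, vecMul,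
      dotProduct, mW, of_apply, one_mul, this, smul_eq_mul]
    split_ifs with hj
    · subst hj
      simp
      field_simp
      norm_num
    · simp
  have := (h.w.mul hm).mul h1
  rwa [e, mul_assoc, h2, mul_one] at this

theorem rot [Fintype F] {p : ℕ} (hF : FH F p) (hp : p ≠ 2) (h : Ctx ζ G)
    (hm : In G (mH (-1 : F))) :
    In G (1 - (2 / 25 : F) • vecMulVec ![3, 4, 0, 0, 0, 0, 0] ![3, 4, 0, 0, 0, 0, 0]) := by
  have : Fact p.Prime := ⟨hF.1⟩
  have := hF.2.1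
  have h2 : (2 : F) ≠ 0 := by exact_mod_cast nz hF hp Nat.prime_two (Or.inl rfl)
  have h3 : (3 : F) ≠ 0 := by exact_mod_cast nz hF hp Nat.prime_three (by omega)
  have h5 : (5 : F) ≠ 0 := by exact_mod_cast nz hF hp Nat.prime_five (by omega)
  have h19 : (19 : F) ≠ 0 := by exact_mod_cast nz hF hp (r := 19) (by norm_num) (by omega)
  have h7 := Cen.seven_ne h.prim
  have h10 : (-10 : F) ≠ 0 := by
    rw [show (-10 : F) = -(2 * 5) by norm_num]; exact neg_ne_zero.2 (mul_ne_zero h2 h5)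
  have h175 : (175 : F) ≠ 0 := by
    rw [show (175 : F) = 5 * 5 * 7 by norm_num]; exact mul_ne_zero (mul_ne_zero h5 h5) h7
  have h25 : (25 : F) ≠ 0 := by
    rw [show (25 : F) = 5 * 5 by norm_num]; exact mul_ne_zero h5 h5
  obtain ⟨a, c, hac⟩ := H8.exists_quad_add_quad h2 (a := 1) (b := 5) one_ne_zero h5 (-5)
  replace hac : a ^ 2 + 5 * c ^ 2 = -5 := by linear_combination hac
  have d0 : du (![1, 0, 0] : Fin 3 → F) ⬝ᵥ ![1, 0, 0] = 1 := by simp [du]
  have d1 : du (![0, 1, 0] : Fin 3 → F) ⬝ᵥ ![0, 1, 0] = 1 := by simp [du]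
  have dU : du (![1, 1, 1] : Fin 3 → F) ⬝ᵥ ![1, 1, 1] = 7 := by simp [du]; norm_num
  have dY : du (![3, 4, 0] : Fin 3 → F) ⬝ᵥ ![3, 4, 0] = 25 := by simp [du]; norm_num
  have r0 : In G (em (P3 F) (Q3 F) 1 (rf ![1, 0, 0])) := by
    rw [em3 h5]; simpa using sgn0 hm
  have r1 : In G (em (P3 F) (Q3 F) 1 (rf ![0, 1, 0])) := by
    rw [em3 h5]; simpa using sgn1 h hm
  have rU : In G (em (P3 F) (Q3 F) 1 (rf ![1, 1, 1])) := by
    rw [em3 h5, show (1 : F) * 1 + 1 * 1 + 5 * 1 * 1 = 7 by norm_num]; exact sgnU h hm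
  set A := xi a c ![1, 0, 0] * xi a c ![1, 1, 1] with hA
  set B := xi a c ![0, 1, 0] * xi a c ![1, 1, 1] with hB
  have dA : A.det = 175 := by rw [hA, det_mul, xi_det hac, xi_det hac, d0, dU]; norm_num
  have dB : B.det = 175 := by rw [hB, det_mul, xi_det hac, xi_det hac, d1, dU]; norm_num
  have tA : A.trace = -10 := by
    simp [hA, xi, trace_fin_two, mul_apply, Fin.sum_univ_two]; ring
  have tB : B.trace = -10 := by
    simp [hB, xi, trace_fin_two, mul_apply, Fin.sum_univ_two]; linear_combination 2 * hac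
  have mA : pg A ∈ M3 G a c h5 := ⟨A, _, dA ▸ h175, rfl,
    ad_rf hac (by rw [d0]; exact one_ne_zero) (by rw [dU]; exact h7), by rw [← em_mul1 (QP3 h5)]; exact r0.mul rU⟩
  have mB : pg B ∈ M3 G a c h5 := ⟨B, _, dB ▸ h175, rfl,
    ad_rf hac (by rw [d1]; exact one_ne_zero) (by rw [dU]; exact h7), by rw [← em_mul1 (QP3 h5)]; exact r1.mul rU⟩
  have eY : xi a c ![3, 4, 0] * xi a c ![1, 0, 0] =
      (25 : F) • ((-3 / 5 : F) • (1 : M2 F) - (4 / 875 : F) • (A * B + (10 : F) • A)) := by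
    have e1 : A * B + (10 : F) • A = (35 : F) • xi a c ![0, 0, 1] := by
      ext i j
      fin_cases i <;> fin_cases j <;> simp [hA, hB, xi] <;> grind
    have h875 : (875 : F) ≠ 0 := by
      rw [show (875 : F) = 5 * 175 by norm_num]; exact mul_ne_zero h5 h175
    rw [e1]
    ext i j
    fin_cases i <;> fin_cases j <;> simp [xi] <;> field_simp <;> ring
  have hc : (A * B - B * A).det ≠ 0 := by
    have e1 : A * B - B * A = (50 : F) • xi a c ![1, 1, 1] := by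
      ext i j
      fin_cases i <;> fin_cases j <;> simp [hA, hB, xi] <;> grind
    rw [e1, det_smul, xi_det hac, dU, show (50 : F) = 2 * 25 by norm_num]
    exact mul_ne_zero (pow_ne_zero _ (mul_ne_zero h2 h25)) (mul_ne_zero h5 h7)
  have key : pg (xi a c ![3, 4, 0] * xi a c ![1, 0, 0]) ∈ M3 G a c h5 := by
    rcases dk p _ (dA ▸ h175) (dB ▸ h175) (tA ▸ h10) (tB ▸ h10) hc mA mB with H | ⟨k, L, l1, l2⟩
    · exfalso
      have hne : A 0 1 ≠ 0 ∨ B 0 1 ≠ 0 := by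
        by_contra! hh
        apply hc
        simp [det_fin_two, mul_apply, Fin.sum_univ_two, hh.1, hh.2]
        ring_nf
        simp
      have : (4 / 7 : F) = 0 ∨ (4 / 7 : F) = 1 ∨ (4 / 7 : F) = 2 ∨
          (4 / 7 : F) ^ 2 - 3 * (4 / 7) + 1 = 0 := by
        rcases hne with e | e
        · exact tau_small H (dA ▸ h175) e mA (by rw [tA, dA]; field_simp; norm_num)
        · exact tau_small H (dB ▸ h175) e mB (by rw [tB, dB]; field_simp; norm_num)
      rcases this with e | e | e | e <;> field_simp at e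
      · exact h2 (pow_eq_zero_iff two_ne_zero |>.1 (by linear_combination e))
      · exact h3 (by linear_combination -e)
      · exact h10 (by linear_combination e)
      · exact h19 (by linear_combination -e)
    · obtain ⟨H, hH, rfl⟩ := exists_pg k
      have hu : IsUnit H.det := isUnit_iff_ne_zero.2 hH
      have i1 := Matrix.mul_nonsing_inv H hu
      have i2 := Matrix.nonsing_inv_mul H hu
      have i3 : H.det * H⁻¹.det = 1 := by rw [← det_mul, i1, det_one]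
      have hH' : H⁻¹.det ≠ 0 := right_ne_zero_of_mul_eq_one i3
      have e0 : (pg H)⁻¹ = pg H⁻¹ := by
        rw [inv_eq_iff_mul_eq_one, pg_mul hH hH', i1, pg_one]
      have dc : ∀ N : M2 F, (H * N * H⁻¹).det = N.det := fun N => by
        rw [det_mul, det_mul, mul_right_comm, i3, one_mul]
      have pc : ∀ N : M2 F, N.det ≠ 0 → pg H * pg N * (pg H)⁻¹ = pg (H * N * H⁻¹) := fun N hN => by
        rw [e0, pg_mul hH hN, pg_mul (by rw [det_mul]; exact mul_ne_zero hH hN) hH']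
      have en : ∀ N : M2 F, N.det = 175 → N.trace = -10 → pg N ∈ M3 G a c h5 →
          ∀ i j, (H * N * H⁻¹) i j ∈ L := fun N n1 n2 n3 =>
        ent (by rw [dc, n1]; exact h175) (by rw [trace_mul_comm, ← mul_assoc, i2, one_mul, n2]) h10
          (by rw [← pc N (n1 ▸ h175)]; exact l2 (conj_mem_cj.2 n3))
      have eA := en A dA tA mA
      have eB := en B dB tB mB
      have dZ := congrArg det eY
      rw [det_mul, xi_det hac, xi_det hac, d0, dY, det_smul, Fintype.card_fin] at dZ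
      rw [eY, pg_smul h25]
      set Z := (-3 / 5 : F) • (1 : M2 F) - (4 / 875 : F) • (A * B + (10 : F) • A) with hZ
      have dZ' : Z.det = 1 := mul_left_cancel₀ (pow_ne_zero 2 h25) (by linear_combination -dZ)
      rw [← conj_mem_cj (h := pg H), pc Z (by rw [dZ']; exact one_ne_zero)]
      refine l1 (mem_PS.2 ⟨_, by rw [dc, dZ'], fun i j => ?_, rfl⟩)
      have e5 : H * Z * H⁻¹ = (-3 / 5 : F) • (1 : M2 F) - (4 / 875 : F) •
          ((H * A * H⁻¹) * (H * B * H⁻¹) + (10 : F) • (H * A * H⁻¹)) := by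
        rw [hZ, mul_sub, sub_mul, mul_smul_comm, smul_mul_assoc, mul_one, i1, mul_smul_comm,
          smul_mul_assoc, mul_add, add_mul, mul_smul_comm, smul_mul_assoc]
        simp only [mul_assoc]
        rw [← mul_assoc H⁻¹ H, i2, one_mul]
      rw [e5]
      generalize H * A * H⁻¹ = A' at eA
      generalize H * B * H⁻¹ = B' at eB
      simp only [Matrix.sub_apply, Matrix.smul_apply, Matrix.add_apply, smul_eq_mul, mul_apply,
        Fin.sum_univ_two]
      refine sub_mem (mul_mem (div_mem (neg_mem (ofNat_mem L 3)) (ofNat_mem L 5)) ?_)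
        (mul_mem (div_mem (ofNat_mem L 4) (ofNat_mem L 875)) (add_mem (add_mem
          (mul_mem (eA _ _) (eB _ _)) (mul_mem (eA _ _) (eB _ _))) (mul_mem (ofNat_mem L 10) (eA _ _))))
      rw [one_apply]
      split_ifs
      · exact one_mem L
      · exact zero_mem L
  obtain ⟨N, T, n1, n2, n3, n4⟩ := key
  have dd : (xi a c ![3, 4, 0] * xi a c ![1, 0, 0]).det ≠ 0 := by
    rw [det_mul, xi_det hac, xi_det hac, d0, dY]
    exact mul_ne_zero (mul_ne_zero h5 h25) (mul_ne_zero h5 one_ne_zero)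
  obtain ⟨k, hk⟩ := (pg_eq_iff dd n1).1 n2.symm
  have hk0 : k ≠ 0 := by rintro rfl; simp [← hk] at n1
  rw [Ad.uniq hac h2 h5 dd (ad_rf hac (by rw [dY]; exact h25) (by rw [d0]; exact one_ne_zero)) hk0
    (S := T) (by rw [hk]; exact n3),
    ← em_mul1 (QP3 h5)] at n4
  obtain ⟨M', m1, m2, -⟩ := r0.exists_inv
  have := n4.mul m1
  rw [mul_assoc, m2, mul_one, em3 h5, show (3 : F) * 3 + 4 * 4 + 5 * 0 * 0 = 25 by norm_num] at this
  exact this

/-- the block of dimension two -/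
def P2' (F : Type*) [Field F] : Matrix (Fin 7) (Fin 2) F :=
  !![0, 1; 1, 0; 0, 0; 0, 0; 0, 0; 0, 0; 0, 0]

theorem QP2 : (P2' F)ᵀ * P2' F = 1 := by
  ext i j
  fin_cases i <;> fin_cases j <;> simp [P2', mul_apply, Fin.sum_univ_seven]

theorem em2 (k x y : F) : em (P2' F) (P2' F)ᵀ 1 (1 - k • vecMulVec ![y, x] ![y, x]) =
    1 - k • vecMulVec ![x, y, 0, 0, 0, 0, 0] ![x, y, 0, 0, 0, 0, 0] := by
  rw [em_rf, vecMul_transpose]
  have : P2' F *ᵥ ![y, x] = ![x, y, 0, 0, 0, 0, 0] := by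
    ext i; fin_cases i <;> simp [P2', mulVec, dotProduct, Fin.sum_univ_two]
  rw [this]

end Refl

open Refl Cfsg.Agent.H6 Cfsg.Agent.H6.Pg Cfsg.Agent.C7.P2 in
theorem refl {F : Type*} [Field F] [Fintype F] {ζ : F} {G : Subgroup (GL (Fin 7) F)} {p : ℕ}
    (hF : FH F p) (hp : p ≠ 2) (h : Ctx ζ G) (hm : In G (mH (-1 : F))) : TVx G := by
  have : Fact p.Prime := ⟨hF.1⟩
  have := hF.2.1
  have h2 : (2 : F) ≠ 0 := by exact_mod_cast nz hF hp Nat.prime_two (Or.inl rfl)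
  have h3 : (3 : F) ≠ 0 := by exact_mod_cast nz hF hp Nat.prime_three (by omega)
  have h5 : (5 : F) ≠ 0 := by exact_mod_cast nz hF hp Nat.prime_five (by omega)
  have h7 := Cen.seven_ne h.prim
  have h25 : (25 : F) ≠ 0 := by
    rw [show (25 : F) = 5 * 5 by norm_num]; exact mul_ne_zero h5 h5
  have h24 : (24 : F) ≠ 0 := by
    rw [show (24 : F) = 2 ^ 3 * 3 by norm_num]; exact mul_ne_zero (pow_ne_zero _ h2) h3
  have z0 : ζ ≠ 0 := h.prim.ne_zero (by norm_num)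
  have z1 : ζ - 1 ≠ 0 := sub_ne_zero.2 (h.prim.ne_one (by norm_num))
  have z2 : ζ + 1 ≠ 0 := fun e => h2 (by
    have := h.prim.pow_eq_one
    rw [eq_neg_of_add_eq_zero_left e] at this
    linear_combination -this)
  have b1 := (rot hF hp h hm).mul (sgn0 hm)
  rw [← em2, ← em2, em_mul1 QP2] at b1
  have e : ((1 : M2 F) - (2 / 25 : F) • vecMulVec ![4, 3] ![4, 3]) *
      (1 - (2 : F) • vecMulVec ![0, 1] ![0, 1]) = !![-7 / 25, 24 / 25; -24 / 25, -7 / 25] := by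
    ext i j
    fin_cases i <;> fin_cases j <;> simp [mul_apply, Fin.sum_univ_two, vecMulVec_apply] <;>
      field_simp <;> norm_num
  rw [e] at b1
  have dB : (!![-7 / 25, 24 / 25; -24 / 25, -7 / 25] : M2 F).det ≠ 0 := by
    rw [show (!![-7 / 25, 24 / 25; -24 / 25, -7 / 25] : M2 F).det = 1 by
      rw [det_fin_two_of]; field_simp; norm_num]
    exact one_ne_zero
  have dA : (!![ζ, 0; 0, 1] : M2 F).det ≠ 0 := by simpa using z0
  have mB : pg !![-7 / 25, 24 / 25; -24 / 25, -7 / 25] ∈ MM G (QP2 (F := F)) ⊤ :=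
    ⟨_, 1, dB, trivial, rfl, Dm.one, b1⟩
  have mA : pg !![ζ, 0; 0, 1] ∈ MM G (QP2 (F := F)) ⊤ := by
    refine ⟨_, diagonal ![1, 1, ζ ^ 2, ζ ^ 3, ζ ^ 4, ζ ^ 5, ζ ^ 6], dA, trivial, rfl,
      ⟨?_, ?_, _, fun i => ?_, rfl⟩, ?_⟩
    · ext i j; fin_cases i <;> fin_cases j <;> simp [P2', diagonal_mul]
    · ext i j; fin_cases i <;> fin_cases j <;> simp [P2', mul_diagonal]
    · fin_cases i <;> simp [z0]
    · convert h.a using 1
      ext i j
      fin_cases i <;> fin_cases j <;>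
        simp [P2.em, P2', C7.mA, mul_apply, Fin.sum_univ_two, vecMul, dotProduct]
  have t1 : (!![-7 / 25, 24 / 25; -24 / 25, -7 / 25] : M2 F).trace ≠ 0 := by
    rw [trace_fin_two_of]
    intro e
    field_simp at e
    exact mul_ne_zero h2 h7 (by linear_combination -e)
  have t2 : (!![ζ, 0; 0, 1] * !![-7 / 25, 24 / 25; -24 / 25, -7 / 25] -
        !![-7 / 25, 24 / 25; -24 / 25, -7 / 25] * !![ζ, 0; 0, 1] : M2 F).det ≠ 0 := by
    rw [show (!![ζ, 0; 0, 1] * !![-7 / 25, 24 / 25; -24 / 25, -7 / 25] -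
        !![-7 / 25, 24 / 25; -24 / 25, -7 / 25] * !![ζ, 0; 0, 1] : M2 F).det =
        -((ζ - 1) * (24 / 25)) ^ 2 by simp [det_fin_two]; ring]
    exact neg_ne_zero.2 (pow_ne_zero _ (mul_ne_zero z1 (div_ne_zero h24 h25)))
  rcases dk p _ dA dB (by simpa using z2) t1 t2 mA mB with H | ⟨k, L, l1, -⟩
  · have := ord_small H h.prim z0 mA
    omega
  · exact big QP2 l1

end Cfsg.Agent.C7
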