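import Cfsg.Agent.C7.Cen

set_option autoImplicit false
open Matrix

namespace Cfsg.Agent.C7

variable {F : Type*} [Field F] {ζ : F} {G : Subgroup (GL (Fin 7) F)}

namespace Span
open Cen Fin.CommRing

/-- the class of transvection parts -/
def C (G : Subgroup (GL (Fin 7) F)) : Set (Mt F) := {N | ∃ v φ, Tr G v φ ∧ N = vecMulVec v φ}

theorem C.conj {x g g' : Mt F} (hx : x ∈ C G) (hg : In G g) (e : g * g' = 1) :
    g * x * g' ∈ C G := by
  obtain ⟨v, φ, ⟨h0, h1⟩, rfl⟩ := hx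
  have e' : g' * g = 1 := mul_eq_one_comm.1 e
  have hm : g * vecMulVec v φ * g' = vecMulVec (g *ᵥ v) (φ ᵥ* g') := by
    rw [mul_vecMulVec, vecMulVec_mul]
  refine ⟨g *ᵥ v, φ ᵥ* g', ⟨?_, ?_⟩, hm⟩
  · rw [← dotProduct_mulVec, mulVec_mulVec, e', one_mulVec, h0]
  · have := (hg.mul h1).mul (hg.inv e)
    rwa [mul_add, add_mul, mul_one, e, hm] at this

theorem C.trace {x : Mt F} (hx : x ∈ C G) : x.trace = 0 := by
  obtain ⟨v, φ, ⟨h0, _⟩, rfl⟩ := hx
  rw [trace_vecMulVec, dotProduct_comm, h0]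

theorem conj_span {x g g' : Mt F} (hx : x ∈ Submodule.span F (C G)) (hg : In G g)
    (e : g * g' = 1) : g * x * g' ∈ Submodule.span F (C G) := by
  induction hx using Submodule.span_induction with
  | mem x hx => exact Submodule.subset_span (C.conj hx hg e)
  | zero => simp
  | add x y _ _ h1 h2 => rw [mul_add, add_mul]; exact add_mem h1 h2
  | smul c x _ h1 => rw [mul_smul_comm, smul_mul_assoc]; exact Submodule.smul_mem _ _ h1

theorem E_mul (i j : Fin 7) (x : Mt F) (r c : Fin 7) :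
    (E ζ i j * x) r c = ch ζ (i * r) * x (r - j) c := by
  rw [mul_apply, Finset.sum_eq_single (r - j)]
  · simp [E]
  · intro b _ hb
    have : r ≠ b + j := fun e => hb (by rw [e]; simp)
    simp [E, this]
  · simp

theorem mul_E (i j : Fin 7) (x : Mt F) (r c : Fin 7) :
    (x * E ζ i j) r c = x r (c + j) * ch ζ (i * (c + j)) := by
  rw [mul_apply, Finset.sum_eq_single (c + j)]
  · simp [E]
  · intro b _ hb; simp [E, hb]
  · simp

/-- conjugation by a Weyl operator -/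
def Ad (ζ : F) (i j : Fin 7) (x : Mt F) : Mt F :=
  of fun r c => ch ζ (i * (r - c)) * x (r - j) (c - j)

theorem Ad_eq (h : ζ ^ 7 = 1) (i j : Fin 7) (x : Mt F) :
    E ζ i j * x * (ch ζ (-(i * j)) • E ζ (-i) (-j)) = Ad ζ i j x := by
  ext r c
  have k : ∀ i j r c : Fin 7, i * (r - c) = -(i * j) + (i * r + -i * (c + -j)) := by decide
  rw [mul_smul_comm, Matrix.smul_apply, mul_E, E_mul, Ad, of_apply, k i j r c, ch_add h, ch_add h,
    ← sub_eq_add_neg, smul_eq_mul]
  ring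

theorem E_inv (h : ζ ^ 7 = 1) (i j : Fin 7) :
    E ζ i j * (ch ζ (-(i * j)) • E ζ (-i) (-j)) = 1 := by
  have := Ad_eq h i j 1
  rw [mul_one] at this
  rw [this]
  ext r c
  by_cases e : r = c
  · subst e; simp [Ad, ch_zero]
  · simp [Ad, e, one_apply]

theorem in_E (h : Ctx ζ G) (i j : Fin 7) : In G (E ζ i j) :=
  E_eq' h.prim.pow_eq_one i j ▸ (h.a.pow _).mul (h.b.pow _)

theorem C.ad (h : Ctx ζ G) {x : Mt F} (hx : x ∈ C G) (i j : Fin 7) : Ad ζ i j x ∈ C G :=
  Ad_eq h.prim.pow_eq_one i j x ▸ C.conj hx (in_E h i j) (E_inv h.prim.pow_eq_one i j)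

/-- Weyl coefficient -/
def κ (ζ : F) (s t : Fin 7) (x : Mt F) : F := ∑ l, ch ζ (-(s * l)) * x l (l - t)

/-- projector -/
def P (ζ : F) (s t : Fin 7) (x : Mt F) : Mt F :=
  ∑ j, ∑ i, ch ζ (j * s - i * t) • Ad ζ i j x

theorem P_eq (hζ : IsPrimitiveRoot ζ 7) (s t : Fin 7) (x : Mt F) :
    P ζ s t x = (7 * κ ζ s t x) • E ζ s t := by
  have h := hζ.pow_eq_one
  ext r c
  have k : ∀ i a r c t : Fin 7, a - i * t + i * (r - c) = a + i * (r - (c + t)) := by
    intro i a r c t; ring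
  have e : ∀ j, ∑ i, ch ζ (j * s - i * t) * (ch ζ (i * (r - c)) * x (r - j) (c - j)) =
      ch ζ (j * s) * x (r - j) (c - j) * if r = c + t then 7 else 0 := by
    intro j
    simp only [← sub_eq_zero (a := r), ← sum_ch hζ, Finset.mul_sum]
    refine Finset.sum_congr rfl fun i _ => ?_
    rw [← mul_assoc, ← ch_add h, k, ch_add h]; ring
  simp only [P, Matrix.sum_apply, Matrix.smul_apply, Ad, of_apply, smul_eq_mul, e, E]
  split_ifs with hr
  · rw [κ, Finset.mul_sum, Finset.sum_mul]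
    refine Fintype.sum_equiv (Equiv.subLeft r) _ _ fun j => ?_
    have k1 : j * s = -(s * (r - j)) + s * r := by ring
    have k2 : c - j = r - j - t := by rw [hr]; ring
    simp only [Equiv.subLeft_apply]
    rw [k1, ch_add h, k2]; ring
  · simp

theorem expand (hζ : IsPrimitiveRoot ζ 7) (x : Mt F) :
    (7 : F) • x = ∑ t, ∑ s, κ ζ s t x • E ζ s t := by
  have h := hζ.pow_eq_one
  ext r c
  simp only [Matrix.sum_apply, Matrix.smul_apply, smul_eq_mul, E, of_apply]
  rw [Finset.sum_eq_single (r - c)]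
  · simp only [add_sub_cancel, if_true, κ, Finset.sum_mul]
    rw [Finset.sum_comm]
    have e : ∀ l, ∑ s, ch ζ (-(s * l)) * x l (l - (r - c)) * ch ζ (s * r) =
        x l (l - (r - c)) * if l = r then 7 else 0 := by
      intro l
      simp only [eq_comm (a := l), ← sub_eq_zero (a := r), ← sum_ch hζ, Finset.mul_sum]
      refine Finset.sum_congr rfl fun s _ => ?_
      rw [show s * (r - l) = -(s * l) + s * r by ring, ch_add h]; ring
    simp only [e]
    simp [mul_comm]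
  · intro b _ hb
    have : r ≠ c + b := fun e => hb (by rw [e]; simp)
    simp [this]
  · simp

theorem κ_zero (x : Mt F) : κ ζ 0 0 x = x.trace := by
  simp [κ, ch_zero, trace]

theorem mD_eq (h : ζ ^ 7 = 1) : mD ζ = diagonal fun r => ch ζ (r * r) := by
  simp only [mD, ch_mul h, pow_two]

theorem mW_eq (h : ζ ^ 7 = 1) : mW ζ = of fun r c => ch ζ (r * c) := by
  simp only [mW, ch_mul h]

theorem d_E (h : ζ ^ 7 = 1) (i j : Fin 7) :
    mD ζ * E ζ i j = ch ζ (-(j * j)) • (E ζ (i + 2 * j) j * mD ζ) := by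
  ext r c
  simp only [mD_eq h, diagonal_mul, mul_diagonal, Matrix.smul_apply, E, of_apply, smul_eq_mul]
  split_ifs with e
  · rw [← ch_add h, ← ch_add h, ← ch_add h, e]; congr 1; ring
  · simp

theorem w_E (h : ζ ^ 7 = 1) (i j : Fin 7) :
    mW ζ * E ζ i j = ch ζ (i * j) • (E ζ j (-i) * mW ζ) := by
  ext r c
  rw [Matrix.smul_apply, mul_E, E_mul, mW_eq h]
  simp only [of_apply, smul_eq_mul]
  rw [← ch_add h, ← ch_add h, ← ch_add h]; congr 1; ring

theorem move {g x y : Mt F} {c : F} (hg : In G g) (hc : c ≠ 0) (e : g * x = c • (y * g))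
    (hx : x ∈ Submodule.span F (C G)) : y ∈ Submodule.span F (C G) := by
  obtain ⟨g', -, e1, -⟩ := hg.exists_inv
  have := conj_span hx hg e1
  rw [e, smul_mul_assoc, mul_assoc, e1, mul_one] at this
  exact (Submodule.smul_mem_iff _ hc).1 this

theorem reach {p : Fin 7 → Fin 7 → Prop} (h1 : ∀ i j, p i j → p (i + 2 * j) j)
    (h2 : ∀ i j, p i j → p j (-i)) {i j : Fin 7} (h0 : i ≠ 0 ∨ j ≠ 0) (h : p i j)
    {k l : Fin 7} (h0' : k ≠ 0 ∨ l ≠ 0) : p k l := by
  have a1 : ∀ i j, j ≠ 0 → p i j → ∀ k, p k j := by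
    intro i j hj h k
    have : ∀ i j k : Fin 7, j ≠ 0 → k = i ∨ k = i + 2 * j ∨ k = i + 2 * j + 2 * j ∨
        k = i + 2 * j + 2 * j + 2 * j ∨ k = i + 2 * j + 2 * j + 2 * j + 2 * j ∨
        k = i + 2 * j + 2 * j + 2 * j + 2 * j + 2 * j ∨
        k = i + 2 * j + 2 * j + 2 * j + 2 * j + 2 * j + 2 * j := by decide
    rcases this i j k hj with rfl | rfl | rfl | rfl | rfl | rfl | rfl <;>
      repeat first | exact h | apply h1
  obtain ⟨j0, a2⟩ : ∃ j0, ∀ k, p k j0 := by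
    by_cases hj : j = 0
    · exact ⟨-i, a1 _ _ (neg_ne_zero.2 (h0.resolve_right (not_not.2 hj))) (h2 _ _ h)⟩
    · exact ⟨j, a1 _ _ hj h⟩
  have a3 : ∀ l, l ≠ 0 → ∀ k, p k l := fun l hl =>
    a1 j0 l hl (by simpa using h2 _ _ (a2 (-l)))
  by_cases hl : l = 0
  · have := h2 _ _ (a3 k (h0'.resolve_right (not_not.2 hl)) 0)
    rwa [neg_zero, ← hl] at this
  · exact a3 l hl k

theorem P_mem (h : Ctx ζ G) {x : Mt F} (hx : x ∈ C G) (s t : Fin 7) :
    P ζ s t x ∈ Submodule.span F (C G) :=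
  Submodule.sum_mem _ fun _ _ => Submodule.sum_mem _ fun _ _ =>
    Submodule.smul_mem _ _ (Submodule.subset_span (C.ad h hx _ _))

theorem E_mem (h : Ctx ζ G) (hT : TVx G) {k l : Fin 7} (h0 : k ≠ 0 ∨ l ≠ 0) :
    E ζ k l ∈ Submodule.span F (C G) := by
  have h7 := h.prim.pow_eq_one
  obtain ⟨v, φ, hv, hφ, hx⟩ := hT
  have hx : vecMulVec v φ ∈ C G := ⟨v, φ, hx, rfl⟩
  have hne : vecMulVec v φ ≠ 0 := vecMulVec_ne_zero hv hφ
  obtain ⟨s, t, hst⟩ : ∃ s t, κ ζ s t (vecMulVec v φ) ≠ 0 := by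
    by_contra hc
    push Not at hc
    have := expand h.prim (vecMulVec v φ)
    simp only [hc, zero_smul, Finset.sum_const_zero] at this
    exact hne ((smul_eq_zero.1 this).resolve_left (seven_ne h.prim))
  have h1 : s ≠ 0 ∨ t ≠ 0 := by
    by_contra hc
    push Not at hc
    exact hst (by rw [hc.1, hc.2, κ_zero, C.trace hx])
  have h2 := P_mem h hx s t
  rw [P_eq h.prim, Submodule.smul_mem_iff _ (mul_ne_zero (seven_ne h.prim) hst)] at h2
  exact reach (p := fun i j => E ζ i j ∈ Submodule.span F (C G))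
    (fun i j => move h.d (ch_ne h7 _) (d_E h7 i j))
    (fun i j => move h.w (ch_ne h7 _) (w_E h7 i j)) h1 h2 h0

end Span

theorem span (h : Ctx ζ G) (hT : TVx G) (M : Mt F) (hM : M.trace = 0) :
    M ∈ Submodule.span F {N : Mt F | ∃ v φ, Tr G v φ ∧ N = vecMulVec v φ} := by
  change M ∈ Submodule.span F (Span.C G)
  rw [← Submodule.smul_mem_iff _ (Cen.seven_ne h.prim), Span.expand h.prim]
  refine Submodule.sum_mem _ fun t _ => Submodule.sum_mem _ fun s _ => ?_
  by_cases h0 : s ≠ 0 ∨ t ≠ 0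
  · exact Submodule.smul_mem _ _ (Span.E_mem h hT h0)
  · push Not at h0
    rw [h0.1, h0.2, Span.κ_zero, hM, zero_smul]
    exact zero_mem _

end Cfsg.Agent.C7
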