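import Cfsg.Agent.C7.Bs
import Cfsg.Agent.C7.Span
import Cfsg.Agent.C7.K8
import Cfsg.Agent.H7.C6M
import Cfsg.Agent.H5.SLProper

set_option autoImplicit false
open Matrix

namespace Cfsg.Agent.C7

namespace Std

open Cen Bs Cfsg.Geo

variable {F : Type*} [Field F] {ζ : F}

theorem EA (h : ζ ^ 7 = 1) : mA ζ = E ζ 1 0 := by
  rw [← E_eq' h]; simp

theorem EB (h : ζ ^ 7 = 1) : mB F = E ζ 0 1 := by
  rw [← E_eq' h]; simp

theorem AB (h : ζ ^ 7 = 1) : mA ζ * mB F = ζ • (mB F * mA ζ) := by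
  ext i j
  simp only [mA, mB, mul_diagonal, diagonal_mul, of_apply, Matrix.smul_apply, smul_eq_mul]
  split_ifs with e
  · have := ch_add h j 1
    simp only [ch] at this
    rw [e, this]
    simp [mul_comm]
  · simp

theorem m_E (i j : Fin 7) : mM F * E ζ i j = (1 : F) • (E ζ (5 * i) (3 * j) * mM F) := by
  ext r c
  rw [one_smul, Span.mul_E, Span.E_mul]
  simp only [mM, of_apply]
  have k : ∀ r c j : Fin 7, r - 3 * j = 3 * c ↔ r = 3 * (c + j) := by decide
  have k2 : ∀ i c j : Fin 7, 5 * i * (3 * (c + j)) = i * (c + j) := by decide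
  simp only [k]
  split_ifs with e
  · rw [e, k2, mul_comm]
  · simp

theorem WW (h : IsPrimitiveRoot ζ 7) : mW ζ * mW ζ = (7 : F) • mT F := by
  have h7 := h.pow_eq_one
  ext i j
  have := sum_ch h (i + j)
  rw [Span.mW_eq h7, mul_apply]
  simp only [of_apply, ← ch_add h7, Matrix.smul_apply, mT, smul_eq_mul]
  have k : ∀ i j l : Fin 7, i * l + l * j = l * (i + j) := by decide
  simp only [k, this, add_eq_zero_iff_eq_neg]
  split_ifs <;> simp

theorem detT : (mT F).det ^ 2 = 1 := by rw [sq, ← det_mul, mT_sq, det_one]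

theorem det1 {x : Mt F} (h7 : x ^ 7 = 1) (h : x * mT F * x = mT F) : x.det = 1 := by
  have h1 := congrArg det h
  have h2 := congrArg det h7
  rw [det_mul, det_mul] at h1
  rw [det_pow, det_one] at h2
  have h3 : x.det ^ 2 = 1 := by
    have := detT (F := F)
    linear_combination (mT F).det * h1 + (1 - x.det ^ 2) * this
  linear_combination h2 - (x.det ^ 5 + x.det ^ 3 + x.det) * h3

theorem detD (h : ζ ^ 7 = 1) : (mD ζ).det = 1 := by
  rw [mD, det_diagonal, Finset.prod_pow_eq_pow_sum,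
    show ∑ i : Fin 7, (i : ℕ) ^ 2 = 7 * 13 by decide, pow_mul, h, one_pow]

theorem detM : (mM F).det = (mM F).det ^ 7 := by
  have := detT (F := F)
  rw [← mM_pow, det_pow] at this
  linear_combination (-(mM F).det) * this

theorem detW (h : IsPrimitiveRoot ζ 7) :
    (mW ζ).det ≠ 0 ∧ (mW ζ).det = (7 ^ 4 / (mW ζ).det) ^ 7 := by
  have h1 := congrArg det (WW h)
  rw [det_mul, det_smul, Fintype.card_fin] at h1
  have h2 := detT (F := F)
  have h4 : (mW ζ).det ^ 4 = 7 ^ 14 := by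
    linear_combination ((mW ζ).det ^ 2 + 7 ^ 7 * (mT F).det) * h1 + 7 ^ 14 * h2
  have h0 : (mW ζ).det ≠ 0 := fun e => by
    rw [e] at h4
    exact pow_ne_zero 14 (seven_ne h) (by rw [← h4]; simp)
  refine ⟨h0, ?_⟩
  field_simp
  linear_combination ((mW ζ).det ^ 4 + 7 ^ 14) * h4

theorem sm1 {c : F} (h : c • (1 : Mt F) = 1) : c = 1 := by
  simpa using congrFun (congrFun h 0) 0

theorem core [Fintype F] (hζ : IsPrimitiveRoot ζ 7) (hM : MainZ ζ) {R : Subgroup (GL (Fin 7) F)}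
    (hA : In R (mA ζ)) (hB : In R (mB F))
    (hc : ∀ x ∈ R, ∀ y ∈ R, ∃ c : F, (x : Mt F) * y = c • ((y : Mt F) * x))
    (h7 : ∀ x ∈ R, x ^ 7 = 1) {M : Subgroup (GL (Fin 7) F)}
    (h1 : subgroupNormalizer R ⊓ specialLinear (Fin 7) F ≤ M) (h2 : M ≤ specialLinear (Fin 7) F) :
    M = subgroupNormalizer R ⊓ specialLinear (Fin 7) F ∨ M = specialLinear (Fin 7) F := by
  have z7 := hζ.pow_eq_one
  have sl : ∀ g : GL (Fin 7) F, g ∈ specialLinear (Fin 7) F ↔ (g : Mt F).det = 1 := fun g => by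
    rw [specialLinear, MonoidHom.mem_ker, ← Units.val_inj, GeneralLinearGroup.val_det_apply,
      Units.val_one]
  have p7 : ∀ x, In R x → x ^ 7 = 1 := by
    rintro _ ⟨x, hx, rfl⟩
    simpa using congrArg Units.val (h7 x hx)
  have hz : In R (ζ • 1) := by
    have := (hA.mul hB).mul ((hB.mul hA).pow 6)
    rwa [AB z7, smul_mul_assoc, ← pow_succ', p7 _ (hB.mul hA)] at this
  have hs : ∀ (c : F) x, In R x → (c • x) ^ 7 = 1 → In R (c • x) := fun c x hx e => by
    rw [smul_pow, p7 x hx] at e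
    obtain ⟨i, -, rfl⟩ := hζ.eq_pow_of_pow_eq_one (sm1 e)
    have := (hz.pow i).mul hx
    rwa [smul_pow, one_pow, smul_mul_assoc, one_mul] at this
  have hE : ∀ i j : ℕ, In R (mA ζ ^ i * mB F ^ j) := fun i j => (hA.pow i).mul (hB.pow j)
  have nrm : ∀ g : GL (Fin 7) F,
      (∃ (c : F) (i j : ℕ), (g : Mt F) * mA ζ = c • (mA ζ ^ i * mB F ^ j) * g) →
      (∃ (c : F) (i j : ℕ), (g : Mt F) * mB F = c • (mA ζ ^ i * mB F ^ j) * g) →
      g ∈ subgroupNormalizer R := fun g ha hb => by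
    have cj : ∀ x, In R x → (∃ (c : F) (i j : ℕ), (g : Mt F) * x = c • (mA ζ ^ i * mB F ^ j) * g) →
        In R ((g : Mt F) * x * (g⁻¹ : GL (Fin 7) F).1) := fun x hx ⟨c, i, j, e⟩ => by
      have e1 : (g : Mt F) * x * (g⁻¹ : GL (Fin 7) F).1 = c • (mA ζ ^ i * mB F ^ j) := by
        rw [e, mul_assoc, Units.mul_inv, mul_one]
      rw [e1]
      refine hs _ _ (hE i j) ?_
      rw [← e1, Units.conj_pow, p7 x hx, mul_one, Units.mul_inv]
    refine H7.C6.mem_normalizer_of fun r hr => ?_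
    obtain ⟨a, ha', ea⟩ := hA
    obtain ⟨b, hb', eb⟩ := hB
    obtain ⟨α, hα⟩ := hc r hr a ha'
    obtain ⟨β, hβ⟩ := hc r hr b hb'
    obtain ⟨c, i, j, e⟩ := cen hζ (GeneralLinearGroup.det_ne_zero r) (ea ▸ hα) (eb ▸ hβ)
    have k := hs c _ (((cj _ ⟨a, ha', ea⟩ ha).pow i).mul ((cj _ ⟨b, hb', eb⟩ hb).pow j))
    have e2 : c • (((g : Mt F) * mA ζ * (g⁻¹ : GL (Fin 7) F).1) ^ i *
        ((g : Mt F) * mB F * (g⁻¹ : GL (Fin 7) F).1) ^ j) = (g * r * g⁻¹ : GL (Fin 7) F).1 := by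
      rw [Units.conj_pow, Units.conj_pow, Units.val_mul, Units.val_mul, e]
      simp [mul_assoc]
    rw [e2] at k
    obtain ⟨s, hs', e3⟩ := k (by
      rw [← Units.val_pow_eq_pow_val, conj_pow, h7 r hr]; simp)
    exact Units.ext e3 ▸ hs'
  let G : Subgroup (GL (Fin 7) F) :=
    { carrier := {g | ∃ c : F, ∃ m ∈ M, (g : Mt F) = c • (m : Mt F)}
      one_mem' := ⟨1, 1, M.one_mem, by simp⟩
      mul_mem' := fun ⟨c, m, hm, e⟩ ⟨c', m', hm', e'⟩ => ⟨c * c', m * m', M.mul_mem hm hm', by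
        simp [e, e', smul_smul, mul_comm]⟩
      inv_mem' := fun {g} ⟨c, m, hm, e⟩ => ⟨c⁻¹, m⁻¹, M.inv_mem hm, by
        have c0 : c ≠ 0 := by
          rintro rfl
          exact g.ne_zero (by simpa using e)
        rw [← mul_one (g⁻¹ : GL (Fin 7) F).1, Units.inv_mul_eq_iff_eq_mul, e]
        simp [smul_smul, c0]⟩ }
  have inG : ∀ (n : Mt F) (c : F), c ≠ 0 → n.det = c ^ 7 →
      (∀ i j, ∃ (d : F) (k l : Fin 7), n * E ζ i j = d • (E ζ k l * n)) → In G n :=
    fun n c c0 hd hn => by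
      have d1 : (c⁻¹ • n).det = 1 := by
        rw [det_smul, hd, Fintype.card_fin, ← mul_pow, inv_mul_cancel₀ c0, one_pow]
      have k : ∀ i j, ∃ (d : F) (k l : ℕ), (c⁻¹ • n) * E ζ i j =
          d • (mA ζ ^ k * mB F ^ l) * (c⁻¹ • n) := fun i j => by
        obtain ⟨d, k, l, e⟩ := hn i j
        exact ⟨d, k, l, by rw [E_eq' z7, smul_mul_assoc, e, smul_mul_assoc, mul_smul_comm,
          smul_comm]⟩
      refine ⟨GeneralLinearGroup.mkOfDetNeZero n (hd ▸ pow_ne_zero _ c0), ⟨c,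
        GeneralLinearGroup.mkOfDetNeZero (c⁻¹ • n) (d1 ▸ one_ne_zero),
        h1 ⟨nrm _ (EA z7 ▸ k 1 0) (EB z7 ▸ k 0 1), (sl _).2 d1⟩, ?_⟩, rfl⟩
      change n = c • c⁻¹ • n
      rw [smul_inv_smul₀ c0]
  have inR : ∀ x, In R x → x.det = 1 → In G x := by
    rintro _ ⟨x, hx, rfl⟩ hd
    exact ⟨x, ⟨1, x, h1 ⟨Subgroup.le_normalizer hx, (sl x).2 hd⟩, by simp⟩, rfl⟩
  have ctx : Ctx ζ G :=
    { prim := hζ
      sc := fun c hc => ⟨GeneralLinearGroup.mkOfDetNeZero (c • 1) (by simpa using hc),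
        ⟨c, 1, M.one_mem, rfl⟩, rfl⟩
      det := by
        rintro _ ⟨g, ⟨c, m, hm, e⟩, rfl⟩
        exact ⟨c, by rw [e, det_smul, (sl m).1 (h2 hm), Fintype.card_fin, mul_one]⟩
      a := inR _ hA (det1 (mA7 z7) (ATA z7))
      b := inR _ hB (det1 mB7 BTB)
      d := inG _ 1 one_ne_zero (by rw [detD z7, one_pow]) fun i j => ⟨_, _, _, Span.d_E z7 i j⟩
      w := inG _ _ (div_ne_zero (pow_ne_zero _ (seven_ne hζ)) (detW hζ).1) (detW hζ).2
        fun i j => ⟨_, _, _, Span.w_E z7 i j⟩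
      m := inG _ _ (fun e => by
          have := detT (F := F)
          rw [← mM_pow, det_pow, e] at this
          simp at this) detM fun i j => ⟨_, _, _, m_E i j⟩ }
  rcases hM G ctx with k | k
  · right
    refine le_antisymm h2 fun g hg => ?_
    obtain ⟨g', ⟨c, m, hm, e⟩, e'⟩ := k g ((sl g).1 hg)
    rw [e'] at e
    have c7 : c ^ 7 = 1 := by
      have := (sl g).1 hg
      rwa [e, det_smul, (sl m).1 (h2 hm), Fintype.card_fin, mul_one] at this
    obtain ⟨z, hz, ez⟩ := hs c 1 In.one (by rw [smul_pow, c7, one_pow, one_smul])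
    have : g = z * m := Units.ext (by rw [Units.val_mul, ez, e, smul_mul_assoc, one_mul])
    rw [this]
    exact M.mul_mem (h1 ⟨Subgroup.le_normalizer hz, (sl z).2 (by
      rw [ez, det_smul, Fintype.card_fin, c7, det_one, mul_one])⟩) hm
  · left
    refine le_antisymm (fun m hm => ⟨?_, h2 hm⟩) h1
    obtain ⟨k1, k2⟩ := k m ⟨m, ⟨1, m, hm, by simp⟩, rfl⟩
    exact nrm m k1 k2

theorem intw (hζ : IsPrimitiveRoot ζ 7) {x y : Mt F} (hx : x ^ 7 = 1) (hy : y ^ 7 = 1)
    (h : x * y = ζ • (y * x)) : ∃ P : GL (Fin 7) F, P * mA ζ = x * P ∧ P * mB F = y * P := by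
  have tr : ∀ k, 0 < k → k < 7 → (x ^ k).trace = 0 := fun k h0 h1 => by
    have e := Asch.pow_mul_of_twist h k
    have e2 : x ^ k = ζ ^ k • (y * x ^ k * y ^ 6) := by
      rw [← smul_mul_assoc, ← e, mul_assoc, ← pow_succ', hy, mul_one]
    have e3 := congrArg trace e2
    rw [trace_smul, trace_mul_comm, ← mul_assoc, ← pow_succ, hy, one_mul, smul_eq_mul] at e3
    have := hζ.pow_ne_one_of_pos_of_lt h0.ne' h1
    exact (mul_eq_zero.1 (show (ζ ^ k - 1) * (x ^ k).trace = 0 by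
      linear_combination -e3)).resolve_left (sub_ne_zero.2 this)
  let s : Mt F := 1 + x ^ 1 + x ^ 2 + x ^ 3 + x ^ 4 + x ^ 5 + x ^ 6
  have s0 : s ≠ 0 := fun e => by
    have := congrArg trace e
    simp only [s, trace_add, tr 1 (by omega) (by omega), tr 2 (by omega) (by omega),
      tr 3 (by omega) (by omega), tr 4 (by omega) (by omega), tr 5 (by omega) (by omega),
      tr 6 (by omega) (by omega), trace_one, trace_zero, add_zero, Fintype.card_fin] at this
    exact seven_ne hζ (by exact_mod_cast this)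
  have xs : x * s = s := by
    simp only [s, mul_add, ← pow_succ', mul_one, hx, pow_one, ← sq]
    abel
  obtain ⟨w, hw⟩ : ∃ w, s *ᵥ w ≠ 0 := by
    by_contra k
    push Not at k
    exact s0 (Matrix.ext_of_mulVec_single fun i => by rw [k, zero_mulVec])
  have xv : x *ᵥ (s *ᵥ w) = s *ᵥ w := by rw [mulVec_mulVec, xs]
  generalize s *ᵥ w = v at hw xv
  have ev : ∀ j : ℕ, x *ᵥ (y ^ j *ᵥ v) = ζ ^ j • (y ^ j *ᵥ v) := fun j => by
    induction j with
    | zero => simpa using xv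
    | succ j ih =>
      rw [pow_succ' y, ← mulVec_mulVec, mulVec_mulVec, h, smul_mulVec, ← mulVec_mulVec, ih,
        mulVec_smul, smul_smul, pow_succ']
  let P : Mt F := of fun r c => (y ^ (c : ℕ) *ᵥ v) r
  have hP : IsUnit P := by
    rw [← linearIndependent_cols_iff_isUnit]
    refine Module.End.eigenvectors_linearIndependent' (toLin' x) (fun j : Fin 7 => ζ ^ (j : ℕ))
      (fun i j e => ch_inj hζ e) _ fun j => ⟨Module.End.mem_eigenspace_iff.2 (ev j), fun e => hw ?_⟩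
    have e1 : y ^ (j : ℕ) *ᵥ v = 0 := e
    have := congrArg (fun u => y ^ (7 - (j : ℕ)) *ᵥ u) e1
    simp only [mulVec_mulVec, ← pow_add, mulVec_zero] at this
    rwa [Nat.sub_add_cancel j.2.le, hy, one_mulVec] at this
  refine ⟨hP.unit, ?_, ?_⟩
  · ext r c
    rw [hP.unit_spec, mA, mul_diagonal]
    have := congrFun (ev c) r
    rw [Pi.smul_apply, smul_eq_mul, mul_comm] at this
    exact this.symm
  · ext r c
    rw [hP.unit_spec, mul_mB]
    have : y ^ ((c + 1 : Fin 7) : ℕ) *ᵥ v = y *ᵥ (y ^ (c : ℕ) *ᵥ v) := by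
      rw [mulVec_mulVec, ← pow_succ', Fin.val_add, Fin.val_one, ← pow_eq_pow_mod _ hy]
    exact congrFun this r

end Std

open Std Cfsg.Geo

variable {F : Type*} [Field F] [Fintype F]

theorem std (hM : ∃ ζ : F, IsPrimitiveRoot ζ 7 ∧ MainZ ζ) (R : Subgroup (GL (Fin 7) F))
    (hR : Cfsg.Geo.IsLinearSymplecticTypeData 7 R) :
    Cfsg.Geo.IsMaximalIn (Cfsg.Geo.specialLinear (Fin 7) F)
      (Cfsg.Geo.subgroupNormalizer R ⊓ Cfsg.Geo.specialLinear (Fin 7) F) := by
  obtain ⟨ζ, hζ, hM⟩ := hM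
  have hs := hR.symplecticType
  haveI : Fact (Nat.Prime 7) := ⟨hs.prime⟩
  have he : ∀ g : R, g ^ 7 = 1 := fun g => by
    have := Monoid.pow_exponent_eq_one g
    rwa [hs.exponent_eq] at this
  have he' : ∀ x ∈ R, x ^ 7 = 1 := fun x hx => congrArg Subtype.val (he ⟨x, hx⟩)
  have ha := Asch.absIrr_of_acts hR.absIrred
  have hD : Asch.RData 7 R := by
    refine ⟨hs.prime, ha, fun x hx y hy => Asch.exists_twist_of_mem
      (ha.mem_scalars_of_comm fun g hg => ?_), fun x hx => by rw [he' x hx]; exact one_mem _⟩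
    have k := H7.C6.comm_mem_center hs.pGroup hs.cyclic_of_characteristic he
      (Subgroup.commutator_mem_commutator (Subgroup.mem_top (⟨x, hx⟩ : R))
        (Subgroup.mem_top ⟨y, hy⟩))
    simpa [commutatorElement_def] using
      (congrArg Subtype.val (Subgroup.mem_center_iff.1 k ⟨g, hg⟩)).symm
  obtain ⟨x, hx, y, hy, c, c1, c7, e⟩ := hD.exists_root (by simp)
  obtain ⟨i, -, hi⟩ := (Asch.RData.isPrimitiveRoot_of_ne_one hs.prime c1 c7).eq_pow_of_pow_eq_one
    hζ.pow_eq_one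
  have e1 := Asch.pow_mul_of_twist e i
  rw [hi] at e1
  have p7 : ∀ x ∈ R, (x : Mt F) ^ 7 = 1 := fun x hx => by
    simpa using congrArg Units.val (he' x hx)
  obtain ⟨P, hA, hB⟩ := intw hζ (by simpa using p7 _ (R.pow_mem hx i)) (p7 y hy) e1
  refine ⟨lt_of_le_of_ne inf_le_right fun k => H5.SL.not_le_subgroupNormalizer (by simp) hR
    (k ▸ inf_le_left), fun M h1 h2 => ?_⟩
  let φ : GL (Fin 7) F →* GL (Fin 7) F := (MulAut.conj P).toMonoidHom
  have φs : Function.Surjective φ := (MulAut.conj P).surjective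
  have φa : ∀ g, φ g = P * g * P⁻¹ := fun g => rfl
  have hSL : (specialLinear (Fin 7) F).comap φ = specialLinear (Fin 7) F := by
    ext g
    simp [specialLinear, φa, MonoidHom.mem_ker]
  have hN : (subgroupNormalizer R ⊓ specialLinear (Fin 7) F).comap φ =
      subgroupNormalizer (R.comap φ) ⊓ specialLinear (Fin 7) F := by
    rw [Subgroup.comap_inf, hSL, subgroupNormalizer,
      Subgroup.comap_normalizer_eq_of_surjective _ φs]
    rfl
  have inn : ∀ z ∈ R, ∀ m : Mt F, (P : Mt F) * m = z * P → In (R.comap φ) m := fun z hz m k =>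
    ⟨P⁻¹ * z * P, by simpa [φa, mul_assoc] using hz, by
      rw [Units.val_mul, Units.val_mul, mul_assoc, ← k, ← mul_assoc, Units.inv_mul, one_mul]⟩
  have := core hζ hM (R := R.comap φ) (inn _ (R.pow_mem hx i) _ (by simpa using hA))
    (inn y hy _ hB) (fun a ha b hb => by
      obtain ⟨d, hd⟩ := hD.comm _ ha _ hb
      refine ⟨d, ?_⟩
      have := congrArg (fun u : Mt F => (P⁻¹ : GL (Fin 7) F).1 * u * P) hd
      simpa [φa, mul_assoc] using this) (fun a ha => by
      have := he' _ ha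
      rw [← map_pow, ← map_one φ] at this
      exact (MulAut.conj P).injective this) (M := M.comap φ)
    (hN ▸ Subgroup.comap_mono h1) (hSL ▸ Subgroup.comap_mono h2)
  rw [← hN] at this
  nth_rewrite 2 [← hSL] at this
  exact this.imp (fun k => Subgroup.comap_injective φs k) fun k => Subgroup.comap_injective φs k

end Cfsg.Agent.C7
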