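import Cfsg.Agent.C7.Span

set_option autoImplicit false
open Matrix

namespace Cfsg.Agent.C7

variable {F : Type*} [Field F] {ζ : F} {G : Subgroup (GL (Fin 7) F)}

namespace TvB
open Cen C7.Span Fin.CommRing

theorem ex (h : Ctx ζ G) (hT : TVx G) {M N : Mt F} (hN : N.trace = 0) (h0 : (N * M).trace ≠ 0) :
    ∃ x ∈ C G, (x * M).trace ≠ 0 := by
  by_contra hc
  push Not at hc
  refine h0 ?_
  have := span h hT N hN
  clear h0 hN
  induction this using Submodule.span_induction with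
  | mem x hx => exact hc x hx
  | zero => simp
  | add x y _ _ h1 h2 => rw [add_mul, trace_add, h1, h2, add_zero]
  | smul c x _ h1 => rw [smul_mul_assoc, trace_smul, h1, smul_zero]

theorem E_E (h : ζ ^ 7 = 1) (i j k l : Fin 7) :
    E ζ i j * E ζ k l = ch ζ (-(j * k)) • E ζ (i + k) (j + l) := by
  ext r c
  rw [E_mul]
  simp only [E, of_apply, Matrix.smul_apply, smul_eq_mul]
  have : r - j = c + l ↔ r = c + (j + l) :=
    ⟨fun e => by linear_combination e, fun e => by linear_combination e⟩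
  simp only [this]
  split_ifs
  · rw [← ch_add h, ← ch_add h]; congr 1; ring
  · simp

theorem tr_E (j : Fin 7) : (E ζ 0 j).trace = if j = 0 then 7 else 0 := by
  split_ifs with e <;> simp [trace, E, e, ch_zero]

theorem κ_tr (t : Fin 7) (x : Mt F) : κ ζ 0 t x = (x * E ζ 0 (-t)).trace := by
  simp only [κ, trace, diag, mul_E, zero_mul, neg_zero, ch_zero, one_mul, mul_one, sub_eq_add_neg]

theorem exκ (h : Ctx ζ G) (hT : TVx G) {t : Fin 7} (ht : t ≠ 0) : ∃ x ∈ C G, κ ζ 0 t x ≠ 0 := by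
  simp only [κ_tr]
  refine ex h hT (N := E ζ 0 t) (by simp [tr_E, ht]) ?_
  rw [E_E h.prim.pow_eq_one]
  simp [tr_E, ch_zero, seven_ne h.prim]

theorem tr_vv (v φ v' φ' : Fin 7 → F) :
    (vecMulVec v φ * vecMulVec v' φ').trace = (φ ⬝ᵥ v') * (φ' ⬝ᵥ v) := by
  rw [vecMulVec_mul_vecMulVec, trace_vecMulVec, dotProduct_smul, dotProduct_comm v, smul_eq_mul]

/-- the invariant trilinear form -/
def T (x y z : Mt F) : F := (x * (y * z - z * y)).trace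

theorem T_cyc (x y z : Mt F) : T x y z = T y z x := by
  simp only [T, mul_sub, trace_sub, ← mul_assoc]
  rw [trace_mul_cycle x z y, trace_mul_cycle y z x]

theorem T_smul (a b c : F) (x y z : Mt F) : T (a • x) (b • y) (c • z) = a * b * c * T x y z := by
  simp only [T, mul_sub, trace_sub, smul_mul_assoc, mul_smul_comm, trace_smul, smul_eq_mul]
  ring

theorem T_fix (σ : F →+* F) (H : ∀ x ∈ C G, ∀ y ∈ C G, σ (x * y).trace = (x * y).trace)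
    {x y z : Mt F} (hx : x ∈ C G) (hy : y ∈ C G) (hz : z ∈ C G) : σ (T x y z) = T x y z := by
  have e1 : ∀ w : Mt F, y * w * y = (y * w).trace • y := by
    obtain ⟨v, φ, -, rfl⟩ := hy
    intro w
    rw [vecMulVec_mul, vecMulVec_mul_vecMulVec, trace_vecMulVec, dotProduct_comm v]
    ext; simp
  have e2 : y * y = 0 := by
    have := e1 1
    rwa [mul_one, C.trace hy, zero_smul] at this
  have hi : In G (1 + y) := by
    obtain ⟨v, φ, h, rfl⟩ := hy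
    exact h.2
  have hw := C.conj hz hi (g' := 1 - y) (by rw [add_mul, one_mul, mul_sub, e2]; simp)
  have e : T x y z = (x * ((1 + y) * z * (1 - y))).trace - (x * z).trace +
      (y * z).trace * (x * y).trace := by
    have : (1 + y) * z * (1 - y) = z + (y * z - z * y) - y * z * y := by noncomm_ring
    rw [this, e1, T]
    simp only [mul_sub, mul_add, trace_sub, trace_add, mul_smul_comm, trace_smul, smul_eq_mul]
    ring
  rw [e, map_add, map_sub, map_mul, H _ hx _ hw, H _ hx _ hz, H _ hy _ hz, H _ hx _ hy]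

theorem lin (h : Ctx ζ G) (σ : F →+* F) {π : Fin 7} (hσ : ∀ a, σ (ch ζ a) = ch ζ (π * a))
    {y z y' z' : Mt F} (H : ∀ x ∈ C G, σ (T x y z) = T x y' z') {x : Mt F} (hx : x ∈ C G)
    (s t : Fin 7) : σ (T (P ζ s t x) y z) = T (P ζ (π * s) (π * t) x) y' z' := by
  simp only [T, P, Finset.sum_mul, trace_sum, smul_mul_assoc, trace_smul, smul_eq_mul, map_sum,
    map_mul, hσ] at H ⊢
  refine Finset.sum_congr rfl fun j _ => Finset.sum_congr rfl fun i _ => ?_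
  rw [H _ (C.ad h hx i j)]
  congr 2; ring

/-- powers of the quadratic phase -/
def D (ζ : F) (k : Fin 7) : Mt F := diagonal fun r => ch ζ (k * (r * r))

theorem D_mem (h : Ctx ζ G) (k : Fin 7) {x : Mt F} (hx : x ∈ C G) :
    D ζ k * x * D ζ (-k) ∈ C G := by
  have h7 := h.prim.pow_eq_one
  refine C.conj hx ?_ ?_
  · have := h.d.pow k
    rw [mD_eq h7, diagonal_pow] at this
    have e : D ζ k = diagonal ((fun r => ch ζ (r * r)) ^ (k : ℕ)) := by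
      rw [D]; congr 1; ext r
      simp [ch_pow h7]
    rwa [e]
  · rw [D, D, diagonal_mul_diagonal, ← diagonal_one]
    congr 1; ext r
    rw [neg_mul, ch_neg h7]

theorem κ_D (h : ζ ^ 7 = 1) (k t : Fin 7) (x : Mt F) :
    κ ζ (2 * k * t) t (D ζ k * x * D ζ (-k)) = ch ζ (-(k * (t * t))) * κ ζ 0 t x := by
  simp only [κ, D, mul_diagonal, diagonal_mul, Finset.mul_sum, zero_mul, neg_zero, ch_zero, one_mul]
  refine Finset.sum_congr rfl fun l _ => ?_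
  rw [show -(k * (t * t)) = -(2 * k * t * l) + k * (l * l) + -k * ((l - t) * (l - t)) by ring,
    ch_add h, ch_add h]
  ring

theorem T_E (h : ζ ^ 7 = 1) (s t : Fin 7) :
    T (E ζ 0 (-t - t)) (E ζ s t) (E ζ (-s) t) = 7 * (ch ζ (t * s) - ch ζ (-(t * s))) := by
  have : -t - t + (t + t) = 0 := by ring
  simp only [T, E_E h, mul_sub, mul_smul_comm, trace_sub, trace_smul, add_neg_cancel,
    neg_add_cancel, add_zero, this, tr_E, if_true, mul_zero, neg_zero, ch_zero, mul_neg, neg_neg,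
    smul_eq_mul]
  ring

theorem TP (hζ : IsPrimitiveRoot ζ 7) (k t : Fin 7) (x z : Mt F) :
    T (P ζ 0 (-t - t) z) (P ζ (2 * k * t) t (D ζ k * x * D ζ (-k)))
      (P ζ (2 * -k * t) t (D ζ (-k) * x * D ζ (- -k))) =
      (7 ^ 4 * κ ζ 0 (-t - t) z * κ ζ 0 t x ^ 2) *
        (ch ζ (2 * k * (t * t)) - ch ζ (-(2 * k * (t * t)))) := by
  have h := hζ.pow_eq_one
  have e := ch_neg h (k * (t * t))
  rw [P_eq hζ, P_eq hζ, P_eq hζ, T_smul, κ_D h, κ_D h, show 2 * -k * t = -(2 * k * t) by ring,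
    T_E h, show t * (2 * k * t) = 2 * k * (t * t) by ring, neg_mul k, neg_neg]
  linear_combination (7 ^ 4 * κ ζ 0 (-t - t) z * κ ζ 0 t x ^ 2) *
        (ch ζ (2 * k * (t * t)) - ch ζ (-(2 * k * (t * t)))) * e

theorem key (h : Ctx ζ G) (hT : TVx G) (σ : F →+* F) {π : Fin 7} (hπ : π = 2 ∨ π = 4)
    (hσ : ∀ a, σ (ch ζ a) = ch ζ (π * a))
    (H : ∀ x ∈ C G, ∀ y ∈ C G, σ (x * y).trace = (x * y).trace) : False := by
  obtain ⟨x, hx, hα⟩ := exκ h hT (t := 1) (by decide)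
  obtain ⟨z, hz, hγ⟩ := exκ h hT (t := -1 - 1) (by decide)
  have main : ∀ {a b c : Mt F}, a ∈ C G → b ∈ C G → c ∈ C G → ∀ s t s' t' s'' t'',
      σ (T (P ζ s t a) (P ζ s' t' b) (P ζ s'' t'' c)) =
        T (P ζ (π * s) (π * t) a) (P ζ (π * s') (π * t') b) (P ζ (π * s'') (π * t'') c) := by
    intro a b c ha hb hc s t s' t' s'' t''
    refine lin h σ hσ (fun a ha => ?_) ha _ _
    rw [T_cyc a, T_cyc a]
    refine lin h σ hσ (fun b hb => ?_) hb _ _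
    rw [T_cyc b, T_cyc b]
    exact lin h σ hσ (fun c hc => T_fix σ H hc ha hb) hc _ _
  obtain ⟨A, B, hA, hk⟩ : ∃ A B : F, A ≠ 0 ∧ ∀ k : Fin 7,
      A * (ch ζ (π * (2 * k * (1 * 1))) - ch ζ (π * -(2 * k * (1 * 1)))) =
        B * (ch ζ (2 * k * (π * π)) - ch ζ (-(2 * k * (π * π)))) := by
    refine ⟨σ (7 ^ 4 * κ ζ 0 (-1 - 1) z * κ ζ 0 1 x ^ 2), 7 ^ 4 * κ ζ 0 (-π - π) z * κ ζ 0 π x ^ 2,
      (map_ne_zero σ).2 (mul_ne_zero (mul_ne_zero (pow_ne_zero _ (seven_ne h.prim)) hγ)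
        (pow_ne_zero _ hα)), fun k => ?_⟩
    have := main hz (D_mem h k hx) (D_mem h (-k) hx) 0 (-1 - 1) (2 * k * 1) 1 (2 * -k * 1) 1
    rw [TP h.prim, map_mul, map_sub, hσ, hσ, mul_zero, mul_one π,
      show π * (-1 - 1) = -π - π by ring, show π * (2 * k * 1) = 2 * k * π by ring,
      show π * (2 * -k * 1) = 2 * -k * π by ring, TP h.prim] at this
    exact this
  have hΦ : 1 + ζ + ζ ^ 2 + ζ ^ 3 + ζ ^ 4 + ζ ^ 5 + ζ ^ 6 = 0 := by
    have := h.prim.geom_sum_eq_zero (by norm_num)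
    simp only [Finset.sum_range_succ, Finset.range_zero, Finset.sum_empty] at this
    linear_combination this
  refine mul_ne_zero hA (seven_ne h.prim) ?_
  have k1 := hk 1
  have k2 := hk 2
  have k4 := hk 4
  rcases hπ with rfl | rfl
  · change A * (ζ ^ 4 - ζ ^ 3) = B * (ζ ^ 1 - ζ ^ 6) at k1
    change A * (ζ ^ 1 - ζ ^ 6) = B * (ζ ^ 2 - ζ ^ 5) at k2
    change A * (ζ ^ 2 - ζ ^ 5) = B * (ζ ^ 4 - ζ ^ 3) at k4
    linear_combination
      A * (7 - 7 * ζ + ζ ^ 2 - 2 * ζ ^ 3 + 3 * ζ ^ 4 - 2 * ζ ^ 5 + ζ ^ 6) * hΦ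
      - ((ζ ^ 4 - ζ ^ 3) - (ζ ^ 2 - ζ ^ 5)) * k1 - ((ζ ^ 1 - ζ ^ 6) - (ζ ^ 4 - ζ ^ 3)) * k2
      - ((ζ ^ 2 - ζ ^ 5) - (ζ ^ 1 - ζ ^ 6)) * k4
  · change A * (ζ ^ 1 - ζ ^ 6) = B * (ζ ^ 4 - ζ ^ 3) at k1
    change A * (ζ ^ 2 - ζ ^ 5) = B * (ζ ^ 1 - ζ ^ 6) at k2
    change A * (ζ ^ 4 - ζ ^ 3) = B * (ζ ^ 2 - ζ ^ 5) at k4
    linear_combination
      A * (7 - 7 * ζ + ζ ^ 2 - 2 * ζ ^ 3 + 3 * ζ ^ 4 - 2 * ζ ^ 5 + ζ ^ 6) * hΦ
      - ((ζ ^ 1 - ζ ^ 6) - (ζ ^ 2 - ζ ^ 5)) * k1 - ((ζ ^ 2 - ζ ^ 5) - (ζ ^ 4 - ζ ^ 3)) * k2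
      - ((ζ ^ 4 - ζ ^ 3) - (ζ ^ 1 - ζ ^ 6)) * k4

end TvB

theorem tvB [Fintype F] {p : ℕ} (hF : FH F p) (h : Ctx ζ G) (hT : TVx G) :
    ∃ v φ v' φ', Tr G v φ ∧ Tr G v' φ' ∧ (φ ⬝ᵥ v') * (φ' ⬝ᵥ v) ≠ 0 ∧
    (Fintype.card F = p ∨ ((φ ⬝ᵥ v') * (φ' ⬝ᵥ v)) ^ p ≠ (φ ⬝ᵥ v') * (φ' ⬝ᵥ v)) := by
  obtain ⟨hp, hc, ⟨h1, -⟩ | ⟨-, h2⟩⟩ := hF
  · obtain ⟨y, ⟨v', φ', hy, rfl⟩, h0⟩ := TvB.exκ h hT (t := 1) (by decide)
    rw [TvB.κ_tr, trace_mul_comm] at h0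
    obtain ⟨x, ⟨v, φ, hx, rfl⟩, h0⟩ := TvB.ex h hT (by simp [TvB.tr_E]) h0
    exact ⟨v, φ, v', φ', hx, hy, TvB.tr_vv v φ v' φ' ▸ h0, Or.inl h1⟩
  · haveI := Fact.mk hp
    by_contra hn
    refine TvB.key h hT (frobenius F p) (π := Fin.ofNat 7 p) ?_
      (fun a => Cen.ch_pow h.prim.pow_eq_one p a) ?_
    · exact h2.imp (fun e => Fin.ext e) (fun e => Fin.ext e)
    · rintro _ ⟨v, φ, hx, rfl⟩ _ ⟨v', φ', hy, rfl⟩
      rw [TvB.tr_vv, frobenius_def]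
      by_contra e
      exact hn ⟨v, φ, v', φ', hx, hy, fun e0 => e (by rw [e0, zero_pow hp.ne_zero]), Or.inr e⟩

end Cfsg.Agent.C7
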