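import Cfsg.Agent.C7.TvC2
import Cfsg.Agent.C7.Span
import Cfsg.Agent.C7.Syl

set_option autoImplicit false
open Matrix

namespace Cfsg.Agent.C7.TvC

variable {G : Subgroup (GL (Fin 7) K8)} {v φ v' φ' : Fin 7 → K8}

theorem tr3 (v φ v' φ' z ψ : Fin 7 → K8) :
    (vecMulVec v φ * vecMulVec v' φ' * vecMulVec z ψ).trace = (φ ⬝ᵥ v') * (φ' ⬝ᵥ z) * (ψ ⬝ᵥ v) := by
  rw [vecMulVec_mul_vecMulVec, vecMulVec_mul_vecMulVec, trace_vecMulVec, smul_dotProduct,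
    dotProduct_smul, dotProduct_comm v ψ]
  rfl

theorem pair (h : Ctx K8.g G) (h1 : Tr G v φ) (h2 : Tr G v' φ') (ha : φ ⬝ᵥ v' = 1)
    (hl : (φ' ⬝ᵥ v) * (φ' ⬝ᵥ v) ≠ φ' ⬝ᵥ v) :
    ∃ v φ v' φ', Tr G v φ ∧ Tr G v' φ' ∧ o7 ((φ ⬝ᵥ v') * (φ' ⬝ᵥ v)) = true := by
  have l0 : φ' ⬝ᵥ v ≠ 0 := fun e => hl (by rw [e, mul_zero])
  have hT : TVx G := ⟨v, φ, fun e => l0 (by rw [e, dotProduct_zero]),
    fun e => by simp [e] at ha, h1⟩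
  obtain ⟨z, ψ, h3, hne⟩ : ∃ z ψ, Tr G z ψ ∧
      (φ' ⬝ᵥ z) * (ψ ⬝ᵥ v) ≠ (φ ⬝ᵥ z) * (ψ ⬝ᵥ v') * (φ' ⬝ᵥ v) := by
    by_contra! hc
    have key : ∀ M ∈ Submodule.span K8 {N : Mt K8 | ∃ v φ, Tr G v φ ∧ N = vecMulVec v φ},
        (vecMulVec v φ * vecMulVec v' φ' * M).trace = (vecMulVec v' φ' * vecMulVec v φ * M).trace := by
      intro M hM
      induction hM using Submodule.span_induction with
      | mem x hx =>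
        obtain ⟨z, ψ, t, rfl⟩ := hx
        rw [tr3, tr3, ha, one_mul, hc z ψ t]
        ring
      | zero => simp
      | add x y _ _ hx hy => rw [mul_add, mul_add, trace_add, trace_add, hx, hy]
      | smul a x _ hx => rw [mul_smul_comm, mul_smul_comm, trace_smul, trace_smul, hx]
    obtain ⟨a, b', hab, ⟨a1, a2⟩, -⟩ := ker2 φ φ'
    obtain ⟨i, hi⟩ : ∃ i, a i ≠ 0 := Function.ne_iff.1 (hab.ne_zero 0)
    have := key _ (span h hT (vecMulVec v φ' - vecMulVec a (ev i ((φ' ⬝ᵥ v) * (a i)⁻¹))) (by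
      have e : ∀ c, a ⬝ᵥ ev i c = a i * c := fun c => by simp [ev, dotProduct]
      rw [trace_sub, trace_vecMulVec, trace_vecMulVec, dotProduct_comm v, e, mul_left_comm,
        mul_inv_cancel₀ hi, mul_one, sub_self]))
    rw [mul_sub, mul_sub, trace_sub, trace_sub, tr3, tr3, tr3, tr3, a1, a2, ha, h1.1] at this
    exact l0 (mul_self_eq_zero.1 (by linear_combination this))
  have hp : PP G ⟨1, φ' ⬝ᵥ v, φ ⬝ᵥ z, ψ ⬝ᵥ v, φ' ⬝ᵥ z, ψ ⬝ᵥ v'⟩ :=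
    ⟨v, φ, v', φ', z, ψ, h1, h2, h3, ha, rfl, rfl, rfl, rfl, rfl⟩
  have := chk _ _ _ _ _ hl hne
  simp only [Bool.or_eq_true] at this
  rcases this with (((hg | hg) | hg) | hg) | hg <;> exact p_good _ _ hg hp

theorem tvC_of (h : Ctx K8.g G)
    (syl : ∀ g : Mt K8, In G g → g ^ 7 = 1 → ∀ u v : Fin 7 → K8, LinearIndependent K8 ![u, v] →
      g *ᵥ u = u → g *ᵥ v = v → ∃ n n' : Mt K8, In G n ∧ n * n' = 1 ∧ (n * g * n').IsDiag)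
    (h1 : Tr G v φ) (h2 : Tr G v' φ')
    (hl : ((φ ⬝ᵥ v') * (φ' ⬝ᵥ v)) ^ 2 ≠ (φ ⬝ᵥ v') * (φ' ⬝ᵥ v)) : SLle G := by
  have a0 : φ ⬝ᵥ v' ≠ 0 := fun e => hl (by simp [e])
  have h3 := trs h2 (inv_ne_zero a0)
  obtain ⟨_, _, _, _, t1, t2, ho⟩ := pair h h1 h3 (by simp [a0]) (by
    rw [inv_inv, smul_dotProduct, smul_eq_mul, ← sq]; exact hl)
  exact sev h syl t1 t2 ho

end Cfsg.Agent.C7.TvC

namespace Cfsg.Agent.C7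

theorem tvC {G : Subgroup (GL (Fin 7) K8)} (h : Ctx K8.g G) {v φ v' φ' : Fin 7 → K8}
    (h1 : Tr G v φ) (h2 : Tr G v' φ')
    (hl : ((φ ⬝ᵥ v') * (φ' ⬝ᵥ v)) ^ 2 ≠ (φ ⬝ᵥ v') * (φ' ⬝ᵥ v)) : SLle G :=
  TvC.tvC_of h (fun _ hg h7 _ _ hi hu hv => syl h hg h7 hi hu hv) h1 h2 hl

end Cfsg.Agent.C7
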