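import Cfsg.Agent.C7.K8

set_option autoImplicit false
set_option maxRecDepth 100000
open Matrix

namespace Cfsg.Agent.C7.TvC

variable {G : Subgroup (GL (Fin 7) K8)} {v φ v' φ' : Fin 7 → K8}

theorem two0 : (2 : K8) = 0 := CharTwo.two_eq_zero

theorem trc {g g' : Mt K8} (h : Tr G v φ) (hg : In G g) (e : g * g' = 1) :
    Tr G (g *ᵥ v) (φ ᵥ* g') := by
  refine ⟨?_, ?_⟩
  · rw [← dotProduct_mulVec, mulVec_mulVec, mul_eq_one_comm.1 e, one_mulVec, h.1]
  · have := (hg.mul h.2).mul (hg.inv e)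
    rwa [mul_add, add_mul, mul_one, e, mul_vecMulVec, vecMulVec_mul] at this

theorem tra (h : Tr G v φ) (h' : Tr G v φ') : Tr G v (φ + φ') := by
  refine ⟨by rw [add_dotProduct, h.1, h'.1, add_zero], ?_⟩
  have := h.2.mul h'.2
  rwa [mul_add, add_mul, add_mul, vecMulVec_mul_vecMulVec, h.1, zero_smul, vecMulVec_zero, mul_one,
    mul_one, one_mul, add_zero, add_assoc, ← vecMulVec_add] at this

theorem trb (h : Tr G v φ) (h' : Tr G v' φ) : Tr G (v + v') φ := by
  refine ⟨by rw [dotProduct_add, h.1, h'.1, add_zero], ?_⟩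
  have := h.2.mul h'.2
  rwa [mul_add, add_mul, add_mul, vecMulVec_mul_vecMulVec, h'.1, zero_smul, vecMulVec_zero, mul_one,
    mul_one, one_mul, add_zero, add_assoc, ← add_vecMulVec] at this

theorem sq0 (h : φ ⬝ᵥ v = 0) : vecMulVec v φ * vecMulVec v φ = 0 := by
  rw [vecMulVec_mul_vecMulVec, h, zero_smul, vecMulVec_zero]

theorem madd (X : Mt K8) : X + X = 0 := by
  ext i j
  exact K8.add_self _

theorem trsq (h : φ ⬝ᵥ v = 0) : (1 + vecMulVec v φ) * (1 + vecMulVec v φ) = 1 := by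
  rw [mul_add, add_mul, add_mul, sq0 h, mul_one, mul_one, one_mul, add_zero, add_assoc, madd,
    add_zero]

theorem mv (v φ w : Fin 7 → K8) : vecMulVec v φ *ᵥ w = (φ ⬝ᵥ w) • v := by
  ext i
  simp only [mulVec, dotProduct, vecMulVec_apply, Pi.smul_apply, smul_eq_mul, Finset.sum_mul]
  exact Finset.sum_congr rfl fun _ _ => by ring

theorem vm (v φ w : Fin 7 → K8) : w ᵥ* vecMulVec v φ = (w ⬝ᵥ v) • φ := by
  ext i
  simp only [vecMul, dotProduct, vecMulVec_apply, Pi.smul_apply, smul_eq_mul, Finset.sum_mul]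
  exact Finset.sum_congr rfl fun _ _ => by ring

theorem trt (h : Tr G v φ) (h' : Tr G v' φ') :
    Tr G (v' + (φ ⬝ᵥ v') • v) (φ' + (φ' ⬝ᵥ v) • φ) := by
  have := trc h' h.2 (trsq h.1)
  rwa [add_mulVec, one_mulVec, vecMul_add, vecMul_one, mv, vm] at this

theorem trs (h : Tr G v φ) {c : K8} (hc : c ≠ 0) : Tr G (c • v) (c⁻¹ • φ) := by
  refine ⟨by simp [h.1], ?_⟩
  rw [smul_vecMulVec, vecMulVec_smul, smul_smul, mul_inv_cancel₀ hc, one_smul]
  exact h.2

theorem aff {R : Fin 7 → Fin 7 → Prop} (h1 : ∀ i j, R i j → R (i + 1) (j + 1))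
    (h3 : ∀ i j, R i j → R (3 * i) (3 * j)) {i j : Fin 7} (hij : i ≠ j) (h : R i j) :
    ∀ k l, k ≠ l → R k l := by
  have a1 : ∀ (n : ℕ) i j, R i j → R ((· + 1)^[n] i) ((· + 1)^[n] j) := fun n => by
    induction n with
    | zero => exact fun _ _ h => h
    | succ n ih => exact fun i j h => ih _ _ (h1 _ _ h)
  have a3 : ∀ (n : ℕ) i j, R i j → R ((3 * ·)^[n] i) ((3 * ·)^[n] j) := fun n => by
    induction n with
    | zero => exact fun _ _ h => h
    | succ n ih => exact fun i j h => ih _ _ (h3 _ _ h)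
  have key : ∀ i j k l : Fin 7, i ≠ j → k ≠ l → ∃ n m : Fin 7,
      (· + 1)^[m] ((3 * ·)^[n] i) = k ∧ (· + 1)^[m] ((3 * ·)^[n] j) = l := by decide +kernel
  intro k l hkl
  obtain ⟨n, m, rfl, rfl⟩ := key i j k l hij hkl
  exact a1 _ _ _ (a3 _ _ _ h)

/-- a diagonal of weight two -/
def hd (i j : Fin 7) (μ : K8) : Fin 7 → K8 := fun k => if k = i then μ else if k = j then μ⁻¹ else 1

theorem dconj {g : Mt K8} {f f' : Fin 7 → K8} (hg : In G g) (hf : In G (diagonal f))
    (e : ∀ k l, g k l * f l = f' k * g k l) : In G (diagonal f') := by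
  obtain ⟨g', h1, h2, -⟩ := hg.exists_inv
  have h3 : g * diagonal f = diagonal f' * g := by
    ext k l
    rw [mul_diagonal, diagonal_mul, e]
  have := (hg.mul hf).mul h1
  rwa [h3, mul_assoc, h2, mul_one] at this

theorem dcongr {f f' : Fin 7 → K8} (hf : In G (diagonal f)) (e : ∀ k, f' k = f k) :
    In G (diagonal f') := by
  rw [funext e]
  exact hf

theorem diag (h : Ctx K8.g G) {i j : Fin 7} (hij : i ≠ j) {μ : K8} (h0 : μ ≠ 0) (h1 : μ ≠ 1)
    (hD : In G (diagonal (hd i j μ))) {f : Fin 7 → K8} (hf : ∏ k, f k = 1) : In G (diagonal f) := by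
  have k1 : ∀ μ ν : K8, μ ≠ 0 → μ ≠ 1 → ν ≠ 0 → ∃ n : Fin 7, μ ^ (n : ℕ) = ν := by decide +kernel
  have k2 : ∀ (i j : Fin 7) (μ : K8) k l,
      mB K8 k l * hd i j μ l = hd (i + 1) (j + 1) μ k * mB K8 k l := by decide +kernel
  have k3 : ∀ (i j : Fin 7) (μ : K8) k l,
      mM K8 k l * hd i j μ l = hd (3 * i) (3 * j) μ k * mM K8 k l := by decide +kernel
  have Q := aff (R := fun i j => ∀ ν : K8, ν ≠ 0 → In G (diagonal (hd i j ν)))
    (fun i j H ν hν => dconj h.b (H ν hν) (k2 i j ν))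
    (fun i j H ν hν => dconj h.m (H ν hν) (k3 i j ν)) hij (fun ν hν => by
      obtain ⟨n, rfl⟩ := k1 μ ν h0 h1 hν
      have := hD.pow n
      rw [diagonal_pow] at this
      refine dcongr this fun k => ?_
      simp only [hd, Pi.pow_apply]
      split_ifs <;> simp)
  have n0 : ∀ k, f k ≠ 0 := fun k e => by
    rw [Finset.prod_eq_zero (Finset.mem_univ k) e] at hf
    exact zero_ne_one hf
  have := (((((Q 1 0 (by decide) _ (n0 1)).mul (Q 2 0 (by decide) _ (n0 2))).mul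
    (Q 3 0 (by decide) _ (n0 3))).mul (Q 4 0 (by decide) _ (n0 4))).mul
    (Q 5 0 (by decide) _ (n0 5))).mul (Q 6 0 (by decide) _ (n0 6))
  simp only [diagonal_mul_diagonal] at this
  refine dcongr this fun k => ?_
  rw [Fin.prod_univ_seven] at hf
  have e1 := n0 1; have e2 := n0 2; have e3 := n0 3; have e4 := n0 4; have e5 := n0 5
  have e6 := n0 6
  fin_cases k <;> simp +decide [hd]
  field_simp
  linear_combination hf

theorem trd (hD : ∀ f : Fin 7 → K8, ∏ k, f k = 1 → In G (diagonal f)) (h : Tr G v φ)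
    {f : Fin 7 → K8} (hf : ∏ k, f k = 1) : Tr G (f * v) (φ * f⁻¹) := by
  have n0 : ∀ k, f k ≠ 0 := fun k e => by
    rw [Finset.prod_eq_zero (Finset.mem_univ k) e] at hf
    exact zero_ne_one hf
  have := trc (g' := diagonal f⁻¹) h (hD f hf) (by
    rw [diagonal_mul_diagonal, ← diagonal_one]
    congr 1
    funext k
    exact mul_inv_cancel₀ (n0 k))
  convert this using 1
  · funext k; rw [mulVec_diagonal]; rfl
  · funext k; rw [vecMul_diagonal]; rfl

/-- basis vector -/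
def ev (i : Fin 7) (c : K8) : Fin 7 → K8 := fun k => if k = i then c else 0

theorem fin (h : Ctx K8.g G) (hD : ∀ f : Fin 7 → K8, ∏ k, f k = 1 → In G (diagonal f))
    {i j : Fin 7} (hij : i ≠ j) (hs : Tr G (ev i 1 + ev j 1) (ev i 1 + ev j 1)) : SLle G := by
  have b1 : mB K8 * (mB K8)ᵀ = 1 := by decide +kernel
  have m1 : mM K8 * (mM K8)ᵀ = 1 := by decide +kernel
  have w1 : mW K8.g * mW K8.g⁻¹ = 1 := by decide +kernel
  have b2 : ∀ i c, mB K8 *ᵥ ev i c = ev (i + 1) c ∧ ev i c ᵥ* (mB K8)ᵀ = ev (i + 1) c := by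
    decide +kernel
  have m2 : ∀ i c, mM K8 *ᵥ ev i c = ev (3 * i) c ∧ ev i c ᵥ* (mM K8)ᵀ = ev (3 * i) c := by
    decide +kernel
  have S := aff (R := fun i j => Tr G (ev i 1 + ev j 1) (ev i 1 + ev j 1))
    (fun i j H => by
      have := trc H h.b b1
      rwa [mulVec_add, add_vecMul, (b2 _ _).1, (b2 _ _).1, (b2 _ _).2, (b2 _ _).2] at this)
    (fun i j H => by
      have := trc H h.m m1
      rwa [mulVec_add, add_vecMul, (m2 _ _).1, (m2 _ _).1, (m2 _ _).2, (m2 _ _).2] at this) hij hs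
  have t1 := trd hD (trc (S 0 1 (by decide)) h.w w1)
    (f := fun k => if k = 0 then 1 else (1 + K8.g ^ (k : ℕ))⁻¹) (by decide +kernel)
  have t2 := trt (S 1 2 (by decide)) t1
  generalize hu : (fun k : Fin 7 => if k = 0 then 1 else (1 + K8.g ^ (k : ℕ))⁻¹) *
    (mW K8.g *ᵥ (ev 0 1 + ev 1 1)) = u at t1 t2
  have u1 : u = fun k => if k = 0 then 0 else 1 := by rw [← hu]; decide +kernel
  subst u1
  rw [show (ev 1 1 + ev 2 1 : Fin 7 → K8) ⬝ᵥ (fun k : Fin 7 => if k = 0 then 0 else 1) = 0 by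
    decide +kernel, zero_smul, add_zero] at t2
  have t3 : Tr G (fun k : Fin 7 => if k = 0 then 0 else 1) (ev 1 (K8.of 4) + ev 2 (K8.of 4)) := by
    convert tra t1 t2 using 1
    decide +kernel
  have t4 : Tr G (ev 3 (K8.of 3)) (ev 1 (K8.of 4) + ev 2 (K8.of 4)) := by
    have := trd hD t3 (f := hd 3 0 K8.g) (by decide +kernel)
    rw [show (ev 1 (K8.of 4) + ev 2 (K8.of 4)) * (hd 3 0 K8.g)⁻¹ =
      ev 1 (K8.of 4) + ev 2 (K8.of 4) by decide +kernel] at this
    convert trb t3 this using 1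
    decide +kernel
  have t5 : Tr G (ev 3 (K8.of 3)) (ev 1 (K8.of 4 * K8.of 3)) := by
    have := trd hD t4 (f := hd 0 1 K8.g) (by decide +kernel)
    rw [show hd 0 1 K8.g * ev 3 (K8.of 3) = ev 3 (K8.of 3) by decide +kernel] at this
    convert tra t4 this using 1
    decide +kernel
  have E := aff (R := fun i j => ∀ c : K8, c ≠ 0 → Tr G (ev i c) (ev j 1))
    (fun i j H c hc => by
      have := trc (H c hc) h.b b1
      rwa [(b2 _ _).1, (b2 _ _).2] at this)
    (fun i j H c hc => by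
      have := trc (H c hc) h.m m1
      rwa [(m2 _ _).1, (m2 _ _).2] at this) (show (3 : Fin 7) ≠ 1 by decide) (fun c hc => by
      have k : ∀ c : K8, c ≠ 0 → ∏ k, (hd 3 0 (c * (K8.of 3)⁻¹) * hd 1 0 (K8.of 4 * K8.of 3)) k = 1 ∧
          ev 3 c = (hd 3 0 (c * (K8.of 3)⁻¹) * hd 1 0 (K8.of 4 * K8.of 3)) * ev 3 (K8.of 3) ∧
          ev 1 1 = ev 1 (K8.of 4 * K8.of 3) *
            (hd 3 0 (c * (K8.of 3)⁻¹) * hd 1 0 (K8.of 4 * K8.of 3))⁻¹ := by decide +kernel
      obtain ⟨k1, k2, k3⟩ := k c hc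
      rw [k2, k3]
      exact trd hD t5 k1)
  intro M hM
  refine diagonal_transvection_induction (fun M => In G M) M (fun D hD' => hD D ?_) (fun t => ?_)
    fun A B => In.mul
  · rw [← det_diagonal, hD', hM]
  · obtain ⟨k, l, hkl, c⟩ := t
    by_cases hc : c = 0
    · simp only [TransvectionStruct.toMatrix_mk, hc, transvection_zero]
      exact In.one
    · have := (E k l hkl c hc).2
      simp only [TransvectionStruct.toMatrix_mk, transvection]
      convert this using 2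
      ext a b
      simp only [single, of_apply, vecMulVec_apply, ev, eq_comm]
      split_ifs <;> simp_all

end Cfsg.Agent.C7.TvC
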