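import Cfsg.Agent.C7.TvC0

set_option autoImplicit false
set_option maxRecDepth 100000
open Matrix

namespace Cfsg.Agent.C7.TvC

variable {G : Subgroup (GL (Fin 7) K8)} {v φ v' φ' : Fin 7 → K8}

theorem inv2 (h : Ctx K8.g G) (hx : Tr G v φ) {D : Fin 7 → K8} (hD : In G (diagonal D))
    (h1 : diagonal D ≠ 1)
    (e : diagonal D * (1 + vecMulVec v φ) * diagonal D = 1 + vecMulVec v φ) : SLle G := by
  have sq : ∀ x : K8, x * x = 1 → x = 1 := by decide +kernel
  have en : ∀ k l, D k * ((if k = l then 1 else 0) + v k * φ l) * D l =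
      (if k = l then 1 else 0) + v k * φ l := fun k l => by
    have := congrFun (congrFun e k) l
    rwa [mul_diagonal, diagonal_mul, Matrix.add_apply, Matrix.one_apply, vecMulVec_apply] at this
  have e1 : ∀ k, D k ≠ 1 → v k * φ k = 1 := fun k hk => by
    by_contra hc
    have := en k k
    rw [if_pos rfl] at this
    have h2 : 1 + v k * φ k ≠ 0 := fun e => hc (by linear_combination e - two0)
    exact hk (sq _ (mul_right_cancel₀ h2 (by linear_combination this)))
  have e2 : ∀ k l, k ≠ l → v k * φ l ≠ 0 → D k * D l = 1 := fun k l hkl h2 => by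
    have := en k l
    rw [if_neg hkl, zero_add] at this
    exact mul_right_cancel₀ h2 (by linear_combination this)
  obtain ⟨i, hi⟩ : ∃ i, D i ≠ 1 := by
    by_contra! hc
    exact h1 (by rw [funext hc]; exact diagonal_one)
  have vi := e1 i hi
  obtain ⟨j, hji, hj⟩ : ∃ j, j ≠ i ∧ v j * φ j ≠ 0 := by
    by_contra! hc
    have := hx.1
    rw [dotProduct, Finset.sum_eq_single i (fun b _ hb => by rw [mul_comm, hc b hb]) (by simp),
      mul_comm, vi] at this
    exact one_ne_zero this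
  have a1 : v i ≠ 0 := fun e => by simp [e] at vi
  have a2 : φ i ≠ 0 := fun e => by simp [e] at vi
  have a3 := (mul_ne_zero_iff.1 hj).1
  have a4 := (mul_ne_zero_iff.1 hj).2
  have dij := e2 i j hji.symm (mul_ne_zero a1 a4)
  have d0 : D i ≠ 0 := fun e => by simp [e] at dij
  have dj : D j ≠ 1 := fun e => hi (by simpa [e] using dij)
  have vj := e1 j dj
  have nij : ∀ k, D k * D i = 1 → D k * D j = 1 → False := fun k p q => by
    have k0 : D k ≠ 0 := fun e => by simp [e] at p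
    have : D j = D i := mul_left_cancel₀ k0 (q.trans p.symm)
    rw [this] at dij
    exact hi (sq _ dij)
  have v0 : ∀ k, k ≠ i → k ≠ j → v k = 0 := fun k p q => by
    by_contra hc
    exact nij k (e2 k i p (mul_ne_zero hc a2)) (e2 k j q (mul_ne_zero hc a4))
  have p0 : ∀ k, k ≠ i → k ≠ j → φ k = 0 := fun k p q => by
    by_contra hc
    exact nij k (by rw [mul_comm]; exact e2 i k p.symm (mul_ne_zero a1 hc))
      (by rw [mul_comm]; exact e2 j k q.symm (mul_ne_zero a3 hc))
  have hA : ∀ f : Fin 7 → K8, ∏ k, f k = 1 → In G (diagonal f) := fun f hf =>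
    diag h hji.symm d0 hi (dcongr hD fun k => by
      simp only [hd]
      split_ifs with p q
      · rw [p]
      · rw [q]; exact (eq_inv_of_mul_eq_one_right dij).symm
      · by_contra hc
        have := e1 k (Ne.symm hc)
        rw [v0 k p q, zero_mul] at this
        exact zero_ne_one this) hf
  obtain ⟨k, ki, kj⟩ := (by decide : ∀ i j : Fin 7, ∃ k : Fin 7, k ≠ i ∧ k ≠ j) i j
  have pr : ∀ (i k : Fin 7) (c : K8), k ≠ i → c ≠ 0 → ∏ l, hd i k c l = 1 := by decide +kernel
  have t := trd hA (trd hA hx (pr i k (v i)⁻¹ ki (inv_ne_zero a1))) (pr j k (v j)⁻¹ kj (inv_ne_zero a3))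
  refine fin h hA hji.symm ?_
  convert t using 1
  · funext l
    simp only [Pi.add_apply, Pi.mul_apply, hd, ev]
    by_cases li : l = i
    · subst li; simp [hji.symm, ki.symm, a1]
    by_cases lj : l = j
    · subst lj; simp [hji, kj.symm, a3]
    simp [li, lj, v0 l li lj]
  · funext l
    simp only [Pi.add_apply, Pi.mul_apply, Pi.inv_apply, hd, ev]
    by_cases li : l = i
    · subst li; simp [hji.symm, ki.symm, mul_comm, vi]
    by_cases lj : l = j
    · subst lj; simp [hji, kj.symm, mul_comm, vj]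
    simp [li, lj, p0 l li lj]

/-- the recursion for the powers of a product of two transvections -/
def step (l : K8) (s : K8 × K8 × K8 × K8) : K8 × K8 × K8 × K8 :=
  (1 + s.1 + s.2.2.1 * l, 1 + s.2.1 + s.2.1 * l + s.2.2.2 * l, 1 + s.1 + s.2.2.1 + s.2.2.1 * l,
    s.2.1 + s.2.2.2)

theorem pw {X Y : Mt K8} {l : K8} (hX : X * X = 0) (hY : Y * Y = 0) (h1 : X * Y * X = l • X)
    (h2 : Y * X * Y = l • Y) (n : ℕ) : ((1 + X) * (1 + Y)) ^ n =
      1 + ((step l)^[n] 0).1 • X + ((step l)^[n] 0).2.1 • Y + ((step l)^[n] 0).2.2.1 • (X * Y) +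
        ((step l)^[n] 0).2.2.2 • (Y * X) := by
  induction n with
  | zero => simp
  | succ n ih =>
    rw [pow_succ, ih, Function.iterate_succ_apply']
    generalize (step l)^[n] 0 = s
    have a1 : X * (X * Y) = 0 := by rw [← mul_assoc, hX, zero_mul]
    have a2 : X * Y * Y = 0 := by rw [mul_assoc, hY, mul_zero]
    have a3 : Y * X * X = 0 := by rw [mul_assoc, hX, mul_zero]
    have a4 : Y * (X * Y) = l • Y := by rw [← mul_assoc, h2]
    have a5 : X * Y * (X * Y) = l • (X * Y) := by rw [← mul_assoc, h1, smul_mul_assoc]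
    have a6 : Y * X * (X * Y) = 0 := by rw [← mul_assoc, a3, zero_mul]
    rw [show (1 + X) * (1 + Y) = 1 + X + Y + X * Y by noncomm_ring]
    simp only [step, add_mul, mul_add, smul_mul_assoc, one_mul, mul_one, hX, hY, h1, h2, a1, a2, a3,
      a4, a5, a6]
    module

theorem xyx (v φ v' φ' : Fin 7 → K8) : vecMulVec v φ * vecMulVec v' φ' * vecMulVec v φ =
    ((φ ⬝ᵥ v') * (φ' ⬝ᵥ v)) • vecMulVec v φ := by
  rw [vecMulVec_mul_vecMulVec, vecMulVec_mul_vecMulVec, smul_dotProduct, vecMulVec_smul, smul_eq_mul]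

theorem ker2 (φ φ' : Fin 7 → K8) : ∃ a b : Fin 7 → K8, LinearIndependent K8 ![a, b] ∧
    (φ ⬝ᵥ a = 0 ∧ φ' ⬝ᵥ a = 0) ∧ φ ⬝ᵥ b = 0 ∧ φ' ⬝ᵥ b = 0 := by
  let L : (Fin 7 → K8) →ₗ[K8] (Fin 2 → K8) := (of ![φ, φ']).mulVecLin
  have h1 := L.finrank_range_add_finrank_ker
  have h2 := Submodule.finrank_le (LinearMap.range L)
  simp only [Module.finrank_fintype_fun_eq_card, Fintype.card_fin] at h1 h2
  obtain ⟨f, hf⟩ := exists_linearIndependent_of_le_finrank (R := K8) (M := LinearMap.ker L) (n := 2)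
    (by omega)
  have h3 := hf.map' (LinearMap.ker L).subtype (Submodule.ker_subtype _)
  have h4 : ∀ i, φ ⬝ᵥ (f i).1 = 0 ∧ φ' ⬝ᵥ (f i).1 = 0 := fun i =>
    ⟨congrFun (f i).2 0, congrFun (f i).2 1⟩
  refine ⟨(f 0).1, (f 1).1, ?_, h4 0, h4 1⟩
  have h5 : ![(f 0).1, (f 1).1] = (LinearMap.ker L).subtype ∘ f := by
    funext i
    fin_cases i <;> rfl
  rw [h5]
  exact h3

/-- the values of order seven -/
def o7 (l : K8) : Bool := l == K8.of 3 || l == K8.of 5 || l == K8.of 7

theorem sev (h : Ctx K8.g G)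
    (syl : ∀ g : Mt K8, In G g → g ^ 7 = 1 → ∀ u v : Fin 7 → K8, LinearIndependent K8 ![u, v] →
      g *ᵥ u = u → g *ᵥ v = v → ∃ n n' : Mt K8, In G n ∧ n * n' = 1 ∧ (n * g * n').IsDiag)
    (h1 : Tr G v φ) (h2 : Tr G v' φ') (hl : o7 ((φ ⬝ᵥ v') * (φ' ⬝ᵥ v)) = true) : SLle G := by
  have k : ∀ l : K8, o7 l = true → (step l)^[7] 0 = 0 ∧ l ≠ 0 := by decide +kernel
  have h7 := pw (sq0 h1.1) (sq0 h2.1) (xyx v φ v' φ') (by rw [xyx, mul_comm]) 7
  rw [(k _ hl).1] at h7
  obtain ⟨a, b, hab, ha, hb⟩ := ker2 φ φ'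
  have fx : ∀ a, φ ⬝ᵥ a = 0 ∧ φ' ⬝ᵥ a = 0 →
      ((1 + vecMulVec v φ) * (1 + vecMulVec v' φ')) *ᵥ a = a := fun a ha => by
    rw [← mulVec_mulVec, add_mulVec, add_mulVec, one_mulVec, mv v', ha.2, zero_smul, add_zero,
      one_mulVec, mv, ha.1, zero_smul, add_zero]
  obtain ⟨n, n', hn, e, hd⟩ := syl _ (h1.2.mul h2.2) (by simpa using h7) a b hab (fx a ha) (fx b hb)
  have e' := mul_eq_one_comm.1 e
  have hD := (hn.mul (h1.2.mul h2.2)).mul (hn.inv e)
  have e2 : 1 + vecMulVec (n *ᵥ v) (φ ᵥ* n') = n * (1 + vecMulVec v φ) * n' := by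
    rw [mul_add, add_mul, mul_one, e, mul_vecMulVec, vecMulVec_mul]
  have s1 := trsq h1.1
  have s2 := trsq h2.1
  have hx := xyx v φ v' φ'
  have q1 := sq0 h1.1
  rw [← hd.diagonal_diag] at hD
  refine inv2 h (trc h1 hn e) hD ?_ ?_
  · rw [hd.diagonal_diag]
    intro e3
    have e4 : (1 + vecMulVec v φ) * (1 + vecMulVec v' φ') = 1 := by
      have := congrArg (fun M => n' * M * n) e3
      simpa only [← mul_assoc, e', one_mul, mul_one, mul_assoc _ n' n] using this
    have e5 : vecMulVec v' φ' = vecMulVec v φ := by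
      have := congrArg (fun M => (1 + vecMulVec v φ) * M) e4
      simp only [← mul_assoc, s1, one_mul, mul_one] at this
      exact add_left_cancel this
    rw [e5, q1, zero_mul] at hx
    have e6 := (smul_eq_zero.1 hx.symm).resolve_left (k _ hl).2
    have e7 := mv v φ v'
    rw [e6, zero_mulVec] at e7
    rcases smul_eq_zero.1 e7.symm with e8 | e8
    · exact (k _ hl).2 (by rw [e8, zero_mul])
    · exact (k _ hl).2 (by rw [e8, dotProduct_zero, mul_zero])
  · rw [hd.diagonal_diag, e2]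
    generalize 1 + vecMulVec v φ = x at *
    generalize 1 + vecMulVec v' φ' = y at *
    calc n * (x * y) * n' * (n * x * n') * (n * (x * y) * n')
        = n * (x * (y * ((n' * n) * x * (n' * n) * x) * y)) * n' := by simp only [mul_assoc]
      _ = n * x * n' := by rw [e', one_mul, mul_one, s1, mul_one, s2, mul_one]

end Cfsg.Agent.C7.TvC
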