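import Cfsg.Agent.C7.TvC1

set_option autoImplicit false
set_option maxRecDepth 100000
open Matrix

namespace Cfsg.Agent.C7.TvC

variable {G : Subgroup (GL (Fin 7) K8)} {v φ v' φ' : Fin 7 → K8}

/-- Gram data `g12, g21, g13, g31, g23, g32` -/
structure St where
  /-- entry -/
  a : K8
  /-- entry -/
  b : K8
  /-- entry -/
  c : K8
  /-- entry -/
  d : K8
  /-- entry -/
  e : K8
  /-- entry -/
  f : K8

/-- the data come from three transvections -/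
def PP (G : Subgroup (GL (Fin 7) K8)) (s : St) : Prop :=
  ∃ v1 φ1 v2 φ2 v3 φ3, Tr G v1 φ1 ∧ Tr G v2 φ2 ∧ Tr G v3 φ3 ∧ φ1 ⬝ᵥ v2 = s.a ∧ φ2 ⬝ᵥ v1 = s.b ∧
    φ1 ⬝ᵥ v3 = s.c ∧ φ3 ⬝ᵥ v1 = s.d ∧ φ2 ⬝ᵥ v3 = s.e ∧ φ3 ⬝ᵥ v2 = s.f

/-- conjugate the second by the first -/
def cj : St → St
  | ⟨a, b, c, d, e, f⟩ => ⟨a, b, c, d, e + b * c, f + a * d⟩
/-- rotate -/
def rot : St → St
  | ⟨a, b, c, d, e, f⟩ => ⟨e, f, b, a, d, c⟩
/-- swap -/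
def sw : St → St
  | ⟨a, b, c, d, e, f⟩ => ⟨b, a, e, f, c, d⟩

/-- the search -/
def good : ℕ → St → Bool
  | 0, ⟨a, b, c, d, e, f⟩ => o7 (a * b) || o7 (c * d) || o7 (e * f)
  | n + 1, s => good n (cj s) || good n (cj (rot s)) || good n (cj (rot (rot s))) ||
      good n (cj (sw s)) || good n (cj (sw (rot s))) || good n (cj (sw (rot (rot s))))

theorem p_cj {s : St} (h : PP G s) : PP G (cj s) := by
  obtain ⟨a, b, c, d, e, f⟩ := s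
  obtain ⟨v1, φ1, v2, φ2, v3, φ3, t1, t2, t3, rfl, rfl, rfl, rfl, rfl, rfl⟩ := h
  refine ⟨v1, φ1, _, _, v3, φ3, t1, trt t1 t2, t3, ?_, ?_, rfl, rfl, ?_, ?_⟩ <;>
    simp [cj, t1.1]

theorem p_rot {s : St} (h : PP G s) : PP G (rot s) := by
  obtain ⟨a, b, c, d, e, f⟩ := s
  obtain ⟨v1, φ1, v2, φ2, v3, φ3, t1, t2, t3, a1, a2, a3, a4, a5, a6⟩ := h
  exact ⟨v2, φ2, v3, φ3, v1, φ1, t2, t3, t1, a5, a6, a2, a1, a4, a3⟩

theorem p_sw {s : St} (h : PP G s) : PP G (sw s) := by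
  obtain ⟨a, b, c, d, e, f⟩ := s
  obtain ⟨v1, φ1, v2, φ2, v3, φ3, t1, t2, t3, a1, a2, a3, a4, a5, a6⟩ := h
  exact ⟨v2, φ2, v1, φ1, v3, φ3, t2, t1, t3, a2, a1, a5, a6, a3, a4⟩

theorem p_good : ∀ (n : ℕ) (s : St), good n s = true → PP G s →
    ∃ v φ v' φ', Tr G v φ ∧ Tr G v' φ' ∧ o7 ((φ ⬝ᵥ v') * (φ' ⬝ᵥ v)) = true
  | 0, ⟨a, b, c, d, e, f⟩, hg, h => by
    obtain ⟨v1, φ1, v2, φ2, v3, φ3, t1, t2, t3, rfl, rfl, rfl, rfl, rfl, rfl⟩ := h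
    simp only [good, Bool.or_eq_true] at hg
    rcases hg with (hg | hg) | hg
    exacts [⟨_, _, _, _, t1, t2, hg⟩, ⟨_, _, _, _, t1, t3, hg⟩, ⟨_, _, _, _, t2, t3, hg⟩]
  | n + 1, s, hg, h => by
    simp only [good, Bool.or_eq_true] at hg
    rcases hg with ((((hg | hg) | hg) | hg) | hg) | hg
    exacts [p_good n _ hg (p_cj h), p_good n _ hg (p_cj (p_rot h)),
      p_good n _ hg (p_cj (p_rot (p_rot h))), p_good n _ hg (p_cj (p_sw h)),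
      p_good n _ hg (p_cj (p_sw (p_rot h))), p_good n _ hg (p_cj (p_sw (p_rot (p_rot h))))]

theorem chk : ∀ b c d e f : K8, b * b ≠ b → e * d ≠ c * f * b →
    (good 0 ⟨1, b, c, d, e, f⟩ || good 1 ⟨1, b, c, d, e, f⟩ || good 2 ⟨1, b, c, d, e, f⟩ ||
      good 3 ⟨1, b, c, d, e, f⟩ || good 4 ⟨1, b, c, d, e, f⟩) = true := by decide +kernel

end Cfsg.Agent.C7.TvC
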