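import Cfsg.Agent.C7.U8a

set_option autoImplicit false
set_option maxRecDepth 100000
open Matrix

namespace Cfsg.Agent.C7.U8

/-- the setting -/
structure St (G N : Subgroup (GL (Fin 7) K8)) : Prop where
  ctx : Ctx K8.g G
  k3 : K3 G
  le : N ≤ G
  ct : ∀ n ∈ N, (n : Mt K8) * mT K8 = mT K8 * n
  nm : ∀ y ∈ G, (y : Mt K8) * mT K8 = mT K8 * y → ∀ n ∈ N, y * n * y⁻¹ ∈ N
  od : Odd ((Subgroup.center (GL (Fin 7) K8)).relIndex N)

variable {G N : Subgroup (GL (Fin 7) K8)}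

/-- the image of `N` times scalars -/
def SP (N : Subgroup (GL (Fin 7) K8)) (Y : M3) : Prop := ∃ n ∈ N, ∃ c : K8, c ≠ 0 ∧ Y = c • r3 (n : Mt K8)

theorem St.l (h : St G N) {n : GL (Fin 7) K8} (hn : n ∈ N) : L G n (r3 (n : Mt K8)) :=
  ⟨⟨n, h.le hn, rfl⟩, h.ct n hn, rfl⟩

theorem St.mul (h : St G N) {Y Y' : M3} (a : SP N Y) (b : SP N Y') : SP N (Y * Y') := by
  obtain ⟨n, hn, c, hc, rfl⟩ := a
  obtain ⟨n', hn', c', hc', rfl⟩ := b
  exact ⟨n * n', N.mul_mem hn hn', c * c', mul_ne_zero hc hc', by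
    rw [Units.val_mul, r3_mul _ (h.ct _ hn'), smul_mul_smul_comm]⟩

theorem sp_one : SP N 1 := ⟨1, N.one_mem, 1, one_ne_zero, by rw [Units.val_one, r3_one, one_smul]⟩

theorem St.pow (h : St G N) {Y : M3} (a : SP N Y) (k : ℕ) : SP N (Y ^ k) := by
  induction k with
  | zero => rw [pow_zero]; exact sp_one
  | succ k ih => rw [pow_succ]; exact h.mul ih a

theorem St.conj (h : St G N) {Y A A' : M3} (a : SP N Y) (h2 : L2 G A A') : SP N (A * Y * A') := by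
  obtain ⟨n, hn, c, hc, rfl⟩ := a
  obtain ⟨x, x', ⟨⟨g, hg, rfl⟩, hx, rfl⟩, ⟨-, hx', rfl⟩, e⟩ := h2
  have e' : ((g⁻¹ : GL (Fin 7) K8) : Mt K8) = x' := Units.inv_eq_of_mul_eq_one_right e
  refine ⟨_, h.nm g hg hx n hn, c, hc, ?_⟩
  rw [Units.val_mul, Units.val_mul, e', r3_mul _ hx', r3_mul _ (h.ct _ hn), mul_smul_comm, smul_mul_assoc]

theorem St.key (h : St G N) {n : GL (Fin 7) K8} (hn : n ∈ N) {c : K8} (hc : c ≠ 0)
    (e : (c • r3 (n : Mt K8)) ^ 4 = 1) : n ∈ Subgroup.center (GL (Fin 7) K8) := by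
  have l := (h.l hn).pow 4
  have e1 : r3 ((n : Mt K8) ^ 4) = (c ^ 4)⁻¹ • 1 := by
    rw [l.2.2, ← e, smul_pow, smul_smul, inv_mul_cancel₀ (pow_ne_zero _ hc), one_smul]
  have e2 : ∃ a : K8, (n : Mt K8) ^ 8 = a • 1 := by
    obtain ⟨a, ha | ha⟩ := h.k3 _ l.1 l.2.1 ⟨_, e1⟩
    · exact ⟨a * a, by rw [show 8 = 4 + 4 from rfl, pow_add, ha, smul_mul_smul_comm, mul_one]⟩
    · exact ⟨a * a, by rw [show 8 = 4 + 4 from rfl, pow_add, ha, smul_mul_smul_comm, tt]⟩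
  have e3 : n ^ 8 ∈ Subgroup.center (GL (Fin 7) K8) := by
    obtain ⟨a, ha⟩ := e2
    rw [Subgroup.mem_center_iff]
    intro g
    apply Units.ext
    rw [Units.val_mul, Units.val_mul, Units.val_pow_eq_pow_val, ha, mul_smul_comm, smul_mul_assoc, mul_one, one_mul]
  have e4 := Subgroup.pow_relIndex_mem (Subgroup.center (GL (Fin 7) K8)) hn
  rw [← QuotientGroup.eq_one_iff] at e3 e4 ⊢
  rw [QuotientGroup.mk_pow] at e3 e4
  have := pow_gcd_eq_one.2 ⟨e3, e4⟩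
  have g1 : Nat.gcd 8 ((Subgroup.center (GL (Fin 7) K8)).relIndex N) = 1 :=
    Nat.Coprime.pow_left 3 (Nat.coprime_two_left.2 h.od)
  rwa [g1, pow_one] at this

theorem St.key2 (h : St G N) {P : M3} (a : SP N P) (e : P * P * (P * P) = 1) : P * D3 = D3 * P := by
  obtain ⟨n, hn, c, hc, rfl⟩ := a
  have z := h.key hn hc (by rw [← e, show 4 = 2 + 2 from rfl, pow_add, pow_two])
  obtain ⟨x, x', ⟨⟨g, hg, rfl⟩, hx, e1⟩, -⟩ := l2d h.ctx
  have := congrArg (fun u : GL (Fin 7) K8 => r3 (u : Mt K8)) (Subgroup.mem_center_iff.1 z g)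
  simp only [Units.val_mul] at this
  rw [r3_mul _ hx, r3_mul _ (h.ct _ hn), e1] at this
  rw [mul_smul_comm, smul_mul_assoc, this]

/-- diagonal matrices -/
def dg (a b c : K8) : M3 := !![a, 0, 0; 0, b, 0; 0, 0, c]

theorem dg_mul (a b c a' b' c' : K8) : dg a b c * dg a' b' c' = dg (a * a') (b * b') (c * c') := by
  ext i j; fin_cases i <;> fin_cases j <;> simp [dg, mul_apply, Fin.sum_univ_three]

theorem dg_pow (a b c : K8) (k : ℕ) : dg a b c ^ k = dg (a ^ k) (b ^ k) (c ^ k) := by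
  induction k with
  | zero => simp only [pow_zero]; decide +kernel
  | succ k ih => rw [pow_succ, ih, dg_mul, pow_succ, pow_succ, pow_succ]

theorem dg_rot (a b c : K8) : P3 * dg a b c * P3' = dg b c a := by
  have e0 : K8.of 0 = 0 := rfl
  have e1 : K8.of 1 = 1 := rfl
  ext i j; fin_cases i <;> fin_cases j <;> simp [dg, P3, P3', lit, e0, e1, mul_apply, Fin.sum_univ_three]

theorem tri : ∀ a b c : K8, a * b * c = 1 → (a = 1 ∧ b = 1 ∧ c = 1) ∨ ∃ e1 e2 : Fin 7,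
    a ^ e1.1 * b ^ e2.1 = K8.of 2 ∧ ((b ^ e1.1 * c ^ e2.1 = K8.of 6 ∧ c ^ e1.1 * a ^ e2.1 = K8.of 4) ∨
      (b ^ e1.1 * c ^ e2.1 = K8.of 4 ∧ c ^ e1.1 * a ^ e2.1 = K8.of 6)) := by decide +kernel

theorem St.no1 (h : St G N) (a : SP N (dg (K8.of 2) (K8.of 6) (K8.of 4))) : False := by
  have a1 : SP N D3 := a
  have a3 : SP N (lit 3 0 0 0 7 0 0 0 5) := (by decide +kernel : D3 * D3 * D3 = lit 3 0 0 0 7 0 0 0 5) ▸ h.mul (h.mul a1 a1) a1
  have p : SP N (lit 1 3 7 5 1 7 5 3 1) :=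
    (by decide +kernel : D3 * (W3 * lit 3 0 0 0 7 0 0 0 5 * W3) = lit 1 3 7 5 1 7 5 3 1) ▸
      h.mul a1 (h.conj a3 (l2w h.ctx))
  exact absurd (h.key2 p (by decide +kernel)) (by decide +kernel)

theorem St.no2 (h : St G N) (a : SP N (dg (K8.of 2) (K8.of 4) (K8.of 6))) : False := by
  have a2 := dg_rot _ _ _ ▸ h.conj a (l2m h.ctx)
  have a3 := dg_pow _ _ _ _ ▸ h.pow a 3
  have a5 := dg_pow _ _ _ _ ▸ h.pow a 5
  have b3 : SP N (lit 1 0 1 0 0 1 1 1 0) := by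
    have := h.conj a3 (l2w h.ctx)
    rwa [show W3 * dg (K8.of 2 ^ 3) (K8.of 4 ^ 3) (K8.of 6 ^ 3) * W3 = lit 1 0 1 0 0 1 1 1 0 by decide +kernel] at this
  have b5 : SP N (lit 0 1 0 1 0 1 0 1 1) := by
    have := h.conj a5 (l2w h.ctx)
    rwa [show W3 * dg (K8.of 2 ^ 5) (K8.of 4 ^ 5) (K8.of 6 ^ 5) * W3 = lit 0 1 0 1 0 1 0 1 1 by decide +kernel] at this
  have q : SP N (lit 0 7 4 0 3 3 2 5 2) := by
    have := h.mul (h.mul (h.mul a b3) a2) b5
    rwa [show dg (K8.of 2) (K8.of 4) (K8.of 6) * lit 1 0 1 0 0 1 1 1 0 * dg (K8.of 4) (K8.of 6) (K8.of 2) *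
      lit 0 1 0 1 0 1 0 1 1 = lit 0 7 4 0 3 3 2 5 2 by decide +kernel] at this
  exact absurd (h.key2 q (by decide +kernel)) (by decide +kernel)

theorem canc : ∀ x a b : K8, a ≠ b → x * a = b * x → x = 0 := by decide +kernel

theorem St.fix (h : St G N) {Y : M3} (a : SP N Y) (hd : Y.det = 1) (e : Y * D3 = D3 * Y) : Y = 1 := by
  have eD : D3 = diagonal ![K8.of 2, K8.of 6, K8.of 4] := by decide +kernel
  have z : ∀ i j, i ≠ j → Y i j = 0 := fun i j hij => by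
    have := congrFun (congrFun e i) j
    rw [eD, mul_diagonal, diagonal_mul] at this
    refine canc _ _ _ ?_ this
    clear this; revert i j; decide +kernel
  have eY : Y = dg (Y 0 0) (Y 1 1) (Y 2 2) := by
    ext i j; fin_cases i <;> fin_cases j <;> first | rfl | exact z _ _ (by decide)
  generalize Y 0 0 = x at eY
  generalize Y 1 1 = y at eY
  generalize Y 2 2 = w at eY
  subst eY
  have hd' : x * y * w = 1 := by rw [← hd]; simp [dg, det_fin_three]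
  rcases tri x y w hd' with ⟨rfl, rfl, rfl⟩ | ⟨e1, e2, h1, h2⟩
  · decide +kernel
  · exfalso
    have b := dg_rot _ _ _ ▸ h.conj a (l2m h.ctx)
    have c := h.mul (h.pow a e1) (h.pow b e2)
    rw [dg_pow, dg_pow, dg_mul, h1] at c
    rcases h2 with ⟨h2, h3⟩ | ⟨h2, h3⟩ <;> rw [h2, h3] at c
    exacts [h.no1 c, h.no2 c]

theorem St.inv (h : St G N) {n : GL (Fin 7) K8} (hn : n ∈ N) :
    r3 (n : Mt K8) * r3 ((n⁻¹ : GL (Fin 7) K8) : Mt K8) = 1 := by
  rw [← r3_mul _ (h.ct _ (N.inv_mem hn)), Units.mul_inv, r3_one]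

/-- the image of determinant one -/
def St.S (h : St G N) : Subgroup (GL (Fin 3) K8) where
  carrier := {Y | (Y : M3).det = 1 ∧ SP N Y}
  one_mem' := ⟨det_one, sp_one⟩
  mul_mem' := fun {a b} ha hb => ⟨by rw [Units.val_mul, det_mul, ha.1, hb.1, mul_one], h.mul ha.2 hb.2⟩
  inv_mem' := fun {a} ha => by
    refine ⟨?_, ?_⟩
    · have := congrArg det (Units.mul_inv a)
      rwa [det_mul, ha.1, one_mul, det_one] at this
    · obtain ⟨n, hn, c, hc, e⟩ := ha.2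
      refine ⟨n⁻¹, N.inv_mem hn, c⁻¹, inv_ne_zero hc, Units.inv_eq_of_mul_eq_one_right ?_⟩
      rw [e, smul_mul_smul_comm, h.inv hn, mul_inv_cancel₀ hc, one_smul]

/-- the torus element -/
def δ : GL (Fin 3) K8 := ⟨D3, D3', by decide +kernel, by decide +kernel⟩

theorem δ7 : δ ^ 7 = 1 := by
  apply Units.ext
  rw [Units.val_pow_eq_pow_val, show (δ : M3) = dg (K8.of 2) (K8.of 6) (K8.of 4) from rfl, dg_pow]
  decide +kernel

theorem d657 : ∀ s < 658, s ∣ 657 → s % 7 = 1 → s = 1 := by decide +kernel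

theorem St.bot (h : St G N) : h.S = ⊥ := by
  classical
  haveI : Fact (Nat.Prime 7) := ⟨by norm_num⟩
  haveI := Fintype.ofFinite h.S
  let f : Function.End h.S := fun Y => ⟨δ * Y * δ⁻¹, by
    refine ⟨?_, h.conj Y.2.2 (l2d h.ctx)⟩
    rw [Units.val_mul, Units.val_mul, det_mul, det_mul, Y.2.1, mul_one, ← det_mul, Units.mul_inv, det_one]⟩
  have fk : ∀ (k : ℕ) (Y : h.S), ((f ^ k) Y : GL (Fin 3) K8) = δ ^ k * Y * (δ ^ k)⁻¹ := fun k => by
    induction k with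
    | zero => intro Y; rw [pow_zero, pow_zero, inv_one, one_mul, mul_one]; rfl
    | succ k ih =>
      intro Y
      rw [pow_succ]
      show ((f ^ k) (f Y) : GL (Fin 3) K8) = _
      rw [ih]
      show δ ^ k * (δ * Y * δ⁻¹) * (δ ^ k)⁻¹ = _
      rw [pow_succ, _root_.mul_inv_rev]
      simp only [mul_assoc]
  have f7 : f ^ 7 ^ 1 = 1 := by
    funext Y
    apply Subtype.ext
    rw [pow_one, fk, δ7, inv_one, one_mul, mul_one]; rfl
  have c1 := Equiv.Perm.card_fixedPoints_modEq f7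
  have fx : ∀ Y : h.S, (Y.1 : M3) * D3 = D3 * Y.1 → Y = 1 := fun Y e =>
    Subtype.ext (Units.ext (h.fix Y.2.2 Y.2.1 e))
  have c2 : Fintype.card f.fixedPoints = 1 := by
    rw [Fintype.card_eq_one_iff]
    refine ⟨⟨1, Subtype.ext (by show δ * 1 * δ⁻¹ = 1; simp)⟩, fun Y => Subtype.ext (fx _ ?_)⟩
    have e : δ * Y.1.1 * δ⁻¹ = Y.1.1 := congrArg Subtype.val Y.2
    rw [mul_inv_eq_iff_eq_mul] at e
    exact (congrArg Units.val e).symm
  have c3 : ¬ 2 ∣ Fintype.card h.S := fun h2 => by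
    obtain ⟨Y, hY⟩ := exists_prime_orderOf_dvd_card 2 h2
    have e : Y * Y = 1 := by rw [← pow_two, ← hY, pow_orderOf_eq_one]
    have e' : (Y.1 : M3) * Y.1 = 1 := congrArg (fun u : h.S => (u.1 : M3)) e
    rw [fx Y (h.key2 Y.2.2 (by rw [e', mul_one])), orderOf_one] at hY
    exact absurd hY (by decide)
  have c4 := Subgroup.card_subgroup_dvd_card h.S
  rw [Matrix.card_GL_field, K8.card, Nat.card_eq_fintype_card] at c4
  rw [← Subgroup.card_eq_one, Nat.card_eq_fintype_card]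
  rw [c2] at c1
  generalize Fintype.card h.S = s at c1 c3 c4
  have c5 : s ∣ 657 * (2 ^ 9 * 7 ^ 3) := by
    simpa [Fin.prod_univ_three] using c4
  have c7 : s % 7 = 1 := c1
  have c6 : s ∣ 657 := by
    refine Nat.Coprime.dvd_of_dvd_mul_right ?_ c5
    refine Nat.Coprime.mul_right (Nat.Coprime.pow_right _ ?_) (Nat.Coprime.pow_right _ ?_)
    · exact ((Nat.Prime.coprime_iff_not_dvd Nat.prime_two).2 c3).symm
    · exact ((Nat.Prime.coprime_iff_not_dvd (by norm_num)).2 (by omega)).symm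
  have c8 : s < 658 := Nat.lt_succ_of_le (Nat.le_of_dvd (by norm_num) c6)
  exact d657 s c8 c6 c7

theorem co (h : Ctx K8.g G) (hK : K3 G) : CO G := by
  intro N h1 h2 h3 h4 n hn
  have s : St G N := ⟨h, hK, h1, h2, h3, h4⟩
  have e := s.inv hn
  have d0 : (r3 (n : Mt K8)).det ≠ 0 := fun h0 => by
    have := congrArg det e
    rw [det_mul, h0, zero_mul, det_one] at this
    exact zero_ne_one this
  obtain ⟨c, c0, hc⟩ : ∃ c : K8, c ≠ 0 ∧ c ^ 3 * (r3 (n : Mt K8)).det = 1 := by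
    revert d0; generalize (r3 (n : Mt K8)).det = d; revert d; decide +kernel
  have e' : (c • r3 (n : Mt K8)) * (c⁻¹ • r3 ((n⁻¹ : GL (Fin 7) K8) : Mt K8)) = 1 := by
    rw [smul_mul_smul_comm, e, mul_inv_cancel₀ c0, one_smul]
  let Y : GL (Fin 3) K8 := ⟨_, _, e', mul_eq_one_comm.1 e'⟩
  have hY : Y ∈ s.S := ⟨by show (c • r3 (n : Mt K8)).det = 1; rw [det_smul, Fintype.card_fin, hc], n, hn, c, c0, rfl⟩
  rw [s.bot, Subgroup.mem_bot] at hY
  have : c • r3 (n : Mt K8) = 1 := congrArg Units.val hY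
  exact s.key hn c0 (by rw [this, one_pow])

end Cfsg.Agent.C7.U8

namespace Cfsg.Agent.C7

theorem u8 {G : Subgroup (GL (Fin 7) K8)} (h : Ctx K8.g G) (hK : K3 G) : UI G ∧ CO G :=
  ⟨U8.ui h hK, U8.co h hK⟩

end Cfsg.Agent.C7
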