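import Cfsg.Agent.C7.K8

set_option autoImplicit false
set_option maxRecDepth 100000
open Matrix

namespace Cfsg.Agent.C7.U8

abbrev M3 := Matrix (Fin 3) (Fin 3) K8

theorem ent {F : Type*} [Field F] {y : Mt F} (h : y * mT F = mT F * y) (a b : Fin 7) : y a b = y (-a) (-b) := by
  have := congrFun (congrFun h a) (-b)
  simp only [mul_apply, mT, of_apply, mul_ite, mul_one, mul_zero, ite_mul, one_mul, zero_mul, neg_neg] at this
  rw [Finset.sum_ite_eq' Finset.univ b, Finset.sum_eq_single (-a) (fun k _ hk => if_neg fun e => hk (by rw [e, neg_neg]))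
    (by simp)] at this
  simpa using this

theorem r3_mul {F : Type*} [Field F] (y : Mt F) {y' : Mt F} (h : y' * mT F = mT F * y') :
    r3 (y * y') = r3 y * r3 y' := by
  have e := ent h
  have e01 : y' 0 6 = y' 0 1 := e 0 6
  have e02 : y' 0 5 = y' 0 2 := e 0 5
  have e03 : y' 0 4 = y' 0 3 := e 0 4
  have e4 : ∀ b, y' 4 b = y' 3 (-b) := e 4
  have e5 : ∀ b, y' 5 b = y' 2 (-b) := e 5
  have e6 : ∀ b, y' 6 b = y' 1 (-b) := e 6
  have n1 : (-1 : Fin 7) = 6 := rfl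
  have n2 : (-2 : Fin 7) = 5 := rfl
  have n3 : (-3 : Fin 7) = 4 := rfl
  have n4 : (-4 : Fin 7) = 3 := rfl
  have n5 : (-5 : Fin 7) = 2 := rfl
  have n6 : (-6 : Fin 7) = 1 := rfl
  ext i j
  fin_cases i <;> fin_cases j <;>
    simp [r3, mul_apply, Fin.sum_univ_seven, Fin.sum_univ_three, e4, e5, e6, e01, e02, e03, n1, n2, n3, n4, n5, n6] <;>
    ring

theorem r3_smul {F : Type*} [Field F] (c : F) (y : Mt F) : r3 (c • y) = c • r3 y := by
  ext i j; simp [r3, mul_sub]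

theorem r3_one : r3 (1 : Mt K8) = 1 := by decide +kernel
theorem r3_t : r3 (mT K8) = 1 := by decide +kernel
theorem tt : mT K8 * mT K8 = 1 := by decide +kernel

/-- literal matrices -/
def lit (a b c d e f g h i : ℕ) : M3 :=
  !![K8.of a, K8.of b, K8.of c; K8.of d, K8.of e, K8.of f; K8.of g, K8.of h, K8.of i]

variable {G : Subgroup (GL (Fin 7) K8)}

/-- `y` lifts `Y` -/
def L (G : Subgroup (GL (Fin 7) K8)) (y : Mt K8) (Y : M3) : Prop :=
  In G y ∧ y * mT K8 = mT K8 * y ∧ r3 y = Y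

theorem L.mul {y y' : Mt K8} {Y Y' : M3} (h : L G y Y) (h' : L G y' Y') : L G (y * y') (Y * Y') :=
  ⟨h.1.mul h'.1, by rw [mul_assoc, h'.2.1, ← mul_assoc, h.2.1, mul_assoc], by rw [r3_mul _ h'.2.1, h.2.2, h'.2.2]⟩

theorem L.one : L G 1 1 := ⟨In.one, by simp, r3_one⟩

theorem L.pow {y : Mt K8} {Y : M3} (h : L G y Y) (n : ℕ) : L G (y ^ n) (Y ^ n) := by
  induction n with
  | zero => simpa using L.one
  | succ n ih => rw [pow_succ, pow_succ]; exact ih.mul h

def W3 : M3 := lit 7 3 5 3 5 7 5 7 3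
def D3 : M3 := lit 2 0 0 0 6 0 0 0 4
def D3' : M3 := lit 5 0 0 0 3 0 0 0 7
def P3 : M3 := lit 0 1 0 0 0 1 1 0 0
def P3' : M3 := lit 0 0 1 1 0 0 0 1 0

/-- a lift with inverse -/
def L2 (G : Subgroup (GL (Fin 7) K8)) (X X' : M3) : Prop :=
  ∃ x x', L G x X ∧ L G x' X' ∧ x * x' = 1

theorem ww : mW K8.g * mW K8.g = mT K8 := by decide +kernel

theorem lw (h : Ctx K8.g G) : L G (mW K8.g) W3 := ⟨h.w, by rw [← ww, mul_assoc], by decide +kernel⟩

theorem l2w (h : Ctx K8.g G) : L2 G W3 W3 :=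
  ⟨_, _, lw h, mul_one W3 ▸ (lw h).mul ⟨h.t, rfl, r3_t⟩, by rw [← mul_assoc, ww, tt]⟩

theorem l2d (h : Ctx K8.g G) : L2 G D3 D3' := by
  have e : mD K8.g * mD (K8.of 5) = 1 := by decide +kernel
  exact ⟨_, _, ⟨h.d, by decide +kernel, by decide +kernel⟩, ⟨h.d.inv e, by decide +kernel, by decide +kernel⟩, e⟩

theorem l2m (h : Ctx K8.g G) : L2 G P3 P3' := by
  have e : mM K8 * (mM K8)ᵀ = 1 := by decide +kernel
  exact ⟨_, _, ⟨h.m, by decide +kernel, by decide +kernel⟩, ⟨h.m.inv e, by decide +kernel, by decide +kernel⟩, e⟩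

/-- `X` lifts to an element with square `t` -/
def Sq (G : Subgroup (GL (Fin 7) K8)) (X : M3) : Prop := ∃ x, L G x X ∧ x * x = mT K8

theorem Sq.conj {X A A' : M3} (h : Sq G X) (h2 : L2 G A A') : Sq G (A * X * A') := by
  obtain ⟨x, hx, e⟩ := h
  obtain ⟨a, a', ha, ha', e'⟩ := h2
  refine ⟨_, (ha.mul hx).mul ha', ?_⟩
  have e'' : a' * a = 1 := mul_eq_one_comm.1 e'
  calc _ = a * (x * (a' * a) * x) * a' := by simp only [mul_assoc]
    _ = mT K8 := by rw [e'', mul_one, e, ha.2.1, mul_assoc, e', mul_one]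

/-- the eight conjugates -/
def X3 : Fin 8 → M3 := ![lit 7 3 5 3 5 7 5 7 3, lit 7 1 7 5 5 1 1 3 3, lit 7 6 6 4 5 4 2 2 3, lit 7 2 3 7 5 6 4 5 3,
  lit 7 7 4 2 5 5 3 6 3, lit 7 4 2 6 5 2 6 4 3, lit 7 5 1 1 5 3 7 1 3, lit 5 7 3 7 3 5 3 5 7]

theorem sqX (h : Ctx K8.g G) (k : Fin 8) : Sq G (X3 k) := by
  have s0 : Sq G (X3 0) := ⟨_, lw h, ww⟩
  have s1 : Sq G (X3 1) := (by decide +kernel : D3 * X3 0 * D3' = X3 1) ▸ s0.conj (l2d h)
  have s2 : Sq G (X3 2) := (by decide +kernel : D3 * X3 1 * D3' = X3 2) ▸ s1.conj (l2d h)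
  have s3 : Sq G (X3 3) := (by decide +kernel : D3 * X3 2 * D3' = X3 3) ▸ s2.conj (l2d h)
  have s4 : Sq G (X3 4) := (by decide +kernel : D3 * X3 3 * D3' = X3 4) ▸ s3.conj (l2d h)
  have s5 : Sq G (X3 5) := (by decide +kernel : D3 * X3 4 * D3' = X3 5) ▸ s4.conj (l2d h)
  have s6 : Sq G (X3 6) := (by decide +kernel : D3 * X3 5 * D3' = X3 6) ▸ s5.conj (l2d h)
  have s7 : Sq G (X3 7) := (by decide +kernel : P3 * X3 0 * P3' = X3 7) ▸ s0.conj (l2m h)
  fin_cases k <;> assumption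

theorem xx : ∀ k, (X3 k - 1) * (X3 k - 1) = 0 := by decide +kernel

theorem rank_one {F : Type*} [Field F] {N : Matrix (Fin 3) (Fin 3) F} (h : N * N = 0) (X : Matrix (Fin 3) (Fin 3) F) :
    N * X * N = (N * X).trace • N := by
  have h1 := LinearMap.finrank_range_add_finrank_ker (toLin' N)
  have h2 : LinearMap.range (toLin' N) ≤ LinearMap.ker (toLin' N) := by
    rintro _ ⟨v, rfl⟩
    rw [LinearMap.mem_ker, toLin'_apply, toLin'_apply, mulVec_mulVec, h, zero_mulVec]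
  have h3 := Submodule.finrank_mono h2
  rw [Module.finrank_fin_fun] at h1
  obtain ⟨u, hu⟩ := finrank_le_one_iff.1 (show Module.finrank F (LinearMap.range (toLin' N)) ≤ 1 by omega)
  choose φ hφ using fun j : Fin 3 => hu ⟨_, Pi.single j 1, rfl⟩
  have e : N = vecMulVec u.1 φ := by
    ext i j
    have := congrFun (congrArg Subtype.val (hφ j)) i
    simp only [Submodule.coe_smul, Pi.smul_apply, smul_eq_mul, toLin'_apply, mulVec_single_one] at this
    rw [vecMulVec_apply, mul_comm, this]; rfl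
  rw [e, vecMulVec_mul, vecMulVec_mul_vecMulVec, trace_vecMulVec, vecMulVec_smul, dotProduct_comm]

/-- coefficients of a power -/
def step (l : K8) (x : K8 × K8 × K8 × K8 × K8) : K8 × K8 × K8 × K8 × K8 :=
  (x.1, x.2.1 + x.1 + (x.2.2.2.2 + x.2.1) * l, x.2.2.1 + x.1 + x.2.2.2.1 * l,
    x.2.2.2.1 + x.2.2.1 + x.1 + x.2.2.2.1 * l, x.2.2.2.2 + x.2.1)

theorem step63 : ∀ l : K8, l ≠ 0 → (step l)^[63] (1, 0, 0, 0, 0) = (1, 0, 0, 0, 0) := by decide +kernel

theorem pow63 {A : Type*} [Ring A] [Algebra K8 A] {a b : A} {l : K8} (hl : l ≠ 0) (ha : a * a = 0) (hb : b * b = 0)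
    (h1 : a * b * a = l • a) (h2 : b * a * b = l • b) : ((1 + a) * (1 + b)) ^ 63 = 1 := by
  let ev : K8 × K8 × K8 × K8 × K8 → A := fun x =>
    x.1 • 1 + x.2.1 • a + x.2.2.1 • b + x.2.2.2.1 • (a * b) + x.2.2.2.2 • (b * a)
  have h1' : a * (b * a) = l • a := by rw [← mul_assoc, h1]
  have h2' : b * (a * b) = l • b := by rw [← mul_assoc, h2]
  have ha' : ∀ c, a * (a * c) = 0 := fun c => by rw [← mul_assoc, ha, zero_mul]
  have hb' : ∀ c, b * (b * c) = 0 := fun c => by rw [← mul_assoc, hb, zero_mul]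
  have st : ∀ x, (1 + a) * (1 + b) * ev x = ev (step l x) := fun x => by
    simp only [ev, step, mul_add, add_mul, mul_smul_comm, mul_assoc, one_mul, mul_one, h1', h2', ha', hb', ha, hb,
      mul_zero, smul_zero]
    module
  have key : ∀ n, ((1 + a) * (1 + b)) ^ n = ev ((step l)^[n] (1, 0, 0, 0, 0)) := fun n => by
    induction n with
    | zero => simp [ev]
    | succ n ih => rw [pow_succ', ih, st, Function.iterate_succ_apply']
  rw [key, step63 l hl]; simp [ev]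

/-- coordinates of the matrix units -/
def cf : Fin 3 → Fin 3 → Fin 9 → ℕ :=
  ![![![3, 4, 4, 2, 2, 2, 2, 4, 6], ![0, 6, 1, 3, 5, 4, 7, 2, 0], ![0, 2, 4, 3, 6, 7, 5, 1, 0]],
    ![![0, 6, 2, 7, 4, 5, 3, 1, 0], ![7, 2, 2, 6, 6, 6, 6, 2, 4], ![0, 4, 1, 7, 3, 2, 5, 6, 0]],
    ![![0, 2, 1, 5, 7, 6, 3, 4, 0], ![0, 4, 6, 5, 2, 3, 7, 1, 0], ![5, 6, 6, 4, 4, 4, 4, 6, 2]]]

theorem cf_spec : ∀ i j, single i j (1 : K8) =
    K8.of (cf i j 0) • (1 : M3) + ∑ k : Fin 8, K8.of (cf i j k.succ) • X3 k := by decide +kernel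

theorem ex_tr {N : M3} (h : N * N = 0) (h0 : N ≠ 0) : ∃ k, (N * (X3 k - 1)).trace ≠ 0 := by
  by_contra hc
  push Not at hc
  have t0 : N.trace = 0 := by
    have := rank_one h 1
    rw [mul_one, h] at this
    exact (smul_eq_zero.1 this.symm).resolve_right h0
  have t1 : ∀ k, (N * X3 k).trace = 0 := fun k => by
    have := hc k
    rwa [mul_sub, mul_one, trace_sub, t0, sub_zero] at this
  apply h0
  ext j i
  have := trace_mul_single N i j (1 : K8)
  rw [cf_spec, mul_add, Finset.mul_sum, trace_add, trace_sum] at this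
  simp only [mul_smul_comm, trace_smul, mul_one, t0, t1, smul_zero, Finset.sum_const_zero, add_zero] at this
  simpa using this.symm

theorem sq_ne_t (c : K8) : (c * c) • (1 : Mt K8) ≠ mT K8 := fun h => by
  have := congrFun (congrFun h 1) 6
  simp [mT] at this
  exact absurd this (by decide)

theorem ui (h : Ctx K8.g G) (hK : K3 G) : UI G := by
  intro y hy ht ⟨c, hc⟩
  by_contra hn
  obtain ⟨y0, -, e0, -⟩ := hy.exists_inv
  have c0 : c ≠ 0 := by
    rintro rfl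
    have : y = 0 := by rw [← mul_one y, ← e0, ← mul_assoc, hc]; simp
    rw [this, zero_mul] at e0
    exact zero_ne_one e0
  obtain ⟨s, s0, hs⟩ : ∃ s : K8, s ≠ 0 ∧ s * s * c = 1 := by revert c0; generalize c = c; revert c; decide +kernel
  set y' := s • y with hy'
  have l1 : L G y' (r3 y') := ⟨h.smul hy s0, by rw [hy', smul_mul_assoc, ht, mul_smul_comm], rfl⟩
  have yy : y' * y' = 1 := by rw [hy', smul_mul_smul_comm, hc, smul_smul, hs, one_smul]
  have YY : r3 y' * r3 y' = 1 := by rw [← r3_mul _ l1.2.1, yy, r3_one]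
  have two : ∀ A : M3, A + A = 0 := fun A => by ext i j; exact K8.add_self _
  have N2 : (r3 y' - 1) * (r3 y' - 1) = 0 := by
    rw [sub_mul, mul_sub, mul_sub, YY, mul_one, one_mul, one_mul]
    have := two (1 - r3 y')
    rw [← this]; abel
  have N0 : r3 y' - 1 ≠ 0 := fun e => hn (hK y hy ht ⟨s⁻¹, by
    rw [← sub_eq_zero.1 e, hy', r3_smul, smul_smul, inv_mul_cancel₀ s0, one_smul]⟩)
  obtain ⟨k, hk⟩ := ex_tr N2 N0
  have p := pow63 hk N2 (xx k) (rank_one N2 _) (by rw [rank_one (xx k), trace_mul_comm])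
  rw [add_sub_cancel, add_sub_cancel] at p
  obtain ⟨x, lx, xx⟩ := sqX h k
  have l2 := (l1.mul lx).pow 63
  rw [p] at l2
  have cz : Commute (y' * x) (mT K8) := (l1.mul lx).2.1
  have k1 : ∀ n, (y' * x) ^ n * (x * y') ^ n = mT K8 ^ n := fun n => by
    induction n with
    | zero => simp
    | succ n ih =>
      have : y' * x * (x * y') = mT K8 := by
        rw [mul_assoc, ← mul_assoc x, xx, ← l1.2.1, ← mul_assoc, yy, one_mul]
      rw [pow_succ, pow_succ', mul_assoc, ← mul_assoc (y' * x), this, ← mul_assoc, (cz.pow_left n).eq, mul_assoc, ih,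
        pow_succ']
  have k2 : ∀ n, (x * y') ^ n = y' * (y' * x) ^ n * y' := fun n => by
    induction n with
    | zero => simp [yy]
    | succ n ih =>
      rw [pow_succ, pow_succ, ih]
      simp only [mul_assoc]
  have k3 : mT K8 ^ 63 = mT K8 := by
    rw [show 63 = 2 * 31 + 1 from rfl, pow_succ, pow_mul, pow_two, tt, one_pow, one_mul]
  have k4 := k1 63
  rw [k2, k3] at k4
  obtain ⟨a, ha | ha⟩ := hK _ l2.1 l2.2.1 ⟨1, by rw [l2.2.2, one_smul]⟩
  · rw [ha] at k4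
    apply sq_ne_t a
    rw [← k4]; simp [yy, smul_smul]
  · rw [ha] at k4
    apply sq_ne_t a
    have e : y' * (a • mT K8) * y' = a • mT K8 := by
      have e1 := l1.2.1
      clear_value y'
      rw [mul_smul_comm, smul_mul_assoc, e1, mul_assoc, yy, mul_one]
    rw [e] at k4
    rw [← k4, smul_mul_smul_comm, tt]

end Cfsg.Agent.C7.U8
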